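import Cfsg.Agent.H1.Sp4
import Cfsg.Agent.H1.GU1

set_option autoImplicit false
set_option maxHeartbeats 400000
set_option linter.unusedSectionVars false

namespace CfsgH1

open Matrix Module CfsgH7 Polynomial

/-- a cyclic field extension given by an automorphism and its fixed field -/
structure FExt (F E : Type*) [Field F] [Field E] where
  ε : F →+* E
  τ : E ≃+* E
  fix : ∀ x, τ x = x ↔ ∃ y, ε y = x

theorem exists_fext (F : Type*) [Field F] [Fintype F] {M : ℕ} (hM : (M : F) ≠ 0) :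
    ∃ (E : Type) (_ : Field E) (_ : Fintype E) (D : FExt F E) (ζ : E),
      (∀ x, D.τ x = x ^ Fintype.card F) ∧ IsPrimitiveRoot ζ M := by
  obtain ⟨p, f, hp, hf, hq, hc⟩ := exists_card_eq_pow F
  haveI := Fact.mk hp
  have hM0 : M ≠ 0 := by rintro rfl; simp at hM
  haveI : NeZero M.totient := ⟨(Nat.totient_pos.2 (Nat.pos_of_ne_zero hM0)).ne'⟩
  let E := FiniteField.Extension F p M.totient
  letI : Fintype E := Fintype.ofFinite E
  have hcop : (Fintype.card F).Coprime M := by
    rw [hq]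
    exact Nat.Coprime.pow_left _ ((Nat.Prime.coprime_iff_not_dvd hp).2 fun h =>
      hM ((CharP.cast_eq_zero_iff F p M).2 h))
  have hdvd : M ∣ Nat.card Eˣ := by
    rw [Nat.card_units, FiniteField.natCard_extension, Nat.card_eq_fintype_card]
    exact (Nat.modEq_iff_dvd' (Nat.one_le_pow _ _ Fintype.card_pos)).1
      (Nat.ModEq.pow_totient hcop).symm
  obtain ⟨g, hg⟩ := IsCyclic.exists_ofOrder_eq_natCard (α := Eˣ)
  have h1 : orderOf (g ^ (orderOf g / M)) = M :=
    orderOf_pow_orderOf_div (orderOf_pos g).ne' (hg ▸ hdvd)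
  let τ := FiniteField.Extension.frob F p M.totient
  refine ⟨E, inferInstance, inferInstance, ⟨algebraMap F E, τ.toRingEquiv, fun x => ⟨fun h => ?_, ?_⟩⟩,
    (g ^ (orderOf g / M) : Eˣ), fun x => ?_, ?_⟩
  · refine (IsGalois.mem_range_algebraMap_iff_fixed x).2 fun f => ?_
    obtain ⟨i, -, rfl⟩ := FiniteField.Extension.exists_frob_pow_eq F p _ f
    rw [AlgEquiv.coe_pow]
    exact Function.iterate_fixed h i
  · rintro ⟨y, rfl⟩
    exact τ.commutes y
  · rw [← Nat.card_eq_fintype_card]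
    exact FiniteField.Extension.frob_apply F p _
  · rw [IsPrimitiveRoot.coe_units_iff]
    have := IsPrimitiveRoot.orderOf (g ^ (orderOf g / M))
    rwa [h1] at this

variable {F E : Type*} [Field F] [Field E] {ι κ : Type*} [Fintype ι] [DecidableEq ι] [Fintype κ]
  [DecidableEq κ]

theorem FExt.τ_ε (D : FExt F E) (y : F) : D.τ (D.ε y) = D.ε y := (D.fix _).2 ⟨y, rfl⟩

theorem FExt.exists_map (D : FExt F E) {M : Matrix ι κ E} (h : M.map D.τ = M) :
    ∃ A : Matrix ι κ F, A.map D.ε = M := by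
  choose A hA using fun i j => (D.fix (M i j)).1 (congrFun (congrFun h i) j)
  exact ⟨Matrix.of A, Matrix.ext hA⟩

/-- `A` is diagonalisable over `E` with eigenvalue multiset `s` -/
def IsDg (ε : F →+* E) (A : Matrix ι ι F) (s : Multiset E) : Prop :=
  ∃ d : ι → E, Finset.univ.val.map d = s ∧ IsConj (A.map ε) (diagonal d)

theorem aeval_diagonal (d : ι → E) (p : E[X]) :
    aeval (diagonal d) p = diagonal fun i => p.eval (d i) := by
  induction p using Polynomial.induction_on' with
  | add p q hp hq => simp [hp, hq]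
  | monomial n a =>
    rw [aeval_monomial, diagonal_pow, Algebra.algebraMap_eq_smul_one, smul_mul_assoc, one_mul,
      ← diagonal_smul]
    congr 1; ext i; simp

theorem map_aeval_mat (ε : F →+* E) (A : Matrix ι ι F) (p : F[X]) :
    (aeval A p).map ε = aeval (A.map ε) (p.map ε) :=
  map_aeval_eq_aeval_map (ψ := ε.mapMatrix) (by
    ext c i j
    by_cases h : i = j <;> simp [algebraMap_matrix_apply, h]) p A

namespace IsDg
variable {ε : F →+* E} {A B : Matrix ι ι F} {s t : Multiset E}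

theorem card_eq (h : IsDg ε A s) : s.card = Fintype.card ι := by
  obtain ⟨d, rfl, -⟩ := h; simp

open Classical in
theorem rank_aeval (h : IsDg ε A s) (p : E[X]) :
    (aeval (A.map ε) p).rank = s.countP fun a => p.eval a ≠ 0 := by
  obtain ⟨d, rfl, h⟩ := h
  rw [rank_eq_of_isConj h, aeval_diagonal, rank_diagonal, Multiset.countP_map,
    Fintype.card_subtype]
  rfl

open Classical in
theorem count_add (h : IsDg ε A s) (a : E) :
    s.count a + (A.map ε - a • 1).rank = Fintype.card ι := by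
  have := h.rank_aeval (X - C a)
  simp only [map_sub, aeval_X, aeval_C, Algebra.algebraMap_eq_smul_one, eval_sub, eval_X,
    eval_C] at this
  rw [this, ← h.card_eq, Multiset.card_eq_countP_add_countP (fun b => a = b) s, Multiset.count]
  congr 1
  exact Multiset.countP_congr rfl fun x _ => by simp [sub_eq_zero, eq_comm]

theorem unique (h : IsDg ε A s) (h' : IsDg ε A t) : s = t := by
  classical
  ext a
  have := h.count_add a
  have := h'.count_add a
  convert (show _ = _ by omega : @Multiset.count _ (Classical.decEq _) a s =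
    @Multiset.count _ (Classical.decEq _) a t)

theorem isConj [Finite F] (h : IsDg ε A s) (h' : IsDg ε B s) : IsConj A B :=
  isConj_of_rank A B fun p _ e => by
    rw [← rank_map_ringHom ε, ← rank_map_ringHom ε, map_aeval_mat, map_aeval_mat, h.rank_aeval,
      h'.rank_aeval]

theorem of_isConj (h : IsDg ε A s) (hc : IsConj A B) : IsDg ε B s := by
  obtain ⟨d, h1, h2⟩ := h
  exact ⟨d, h1, (ε.mapMatrix.toMonoidHom.map_isConj hc).symm.trans h2⟩

theorem eq_of_isConj (h : IsDg ε A s) (h' : IsDg ε B t) (hc : IsConj A B) : s = t :=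
  (h.of_isConj hc).unique h'

theorem map_hom {F' E' : Type*} [Field F'] [Field E'] {ε' : F' →+* E'} (σ : F →+* F')
    (φ : E →+* E') (hc : ∀ x, ε' (σ x) = φ (ε x)) (h : IsDg ε A s) :
    IsDg ε' (A.map σ) (s.map φ) := by
  obtain ⟨d, rfl, h2⟩ := h
  refine ⟨φ ∘ d, by simp, ?_⟩
  have := φ.mapMatrix.toMonoidHom.map_isConj h2
  convert this using 1
  · ext i j; simp [hc]
  · change _ = (diagonal d).map φ
    rw [diagonal_map (map_zero φ)]; rfl

theorem map_τ {D : FExt F E} (h : IsDg D.ε A s) : s.map D.τ = s :=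
  (h.map_hom (RingHom.id F) D.τ.toRingHom (ε' := D.ε) fun x => (D.τ_ε x).symm).unique h

theorem transpose [Finite E] (h : IsDg ε A s) : IsDg ε Aᵀ s := by
  obtain ⟨d, h1, h2⟩ := h
  exact ⟨d, h1, (isConj_transpose _).symm.trans h2⟩

theorem pow (h : IsDg ε A s) (k : ℕ) : IsDg ε (A ^ k) (s.map (· ^ k)) := by
  obtain ⟨d, rfl, h2⟩ := h
  refine ⟨d ^ k, by simp, ?_⟩
  rw [← diagonal_pow, Matrix.map_pow]
  exact h2.pow k

theorem smul (h : IsDg ε A s) (c : F) : IsDg ε (c • A) (s.map (ε c * ·)) := by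
  obtain ⟨d, rfl, P, h2⟩ := h
  refine ⟨ε c • d, by simp, P, ?_⟩
  have : (c • A).map ε = ε c • A.map ε := by ext; simp
  rw [this, diagonal_smul]
  exact h2.smul_right _

theorem ne_zero (h : IsDg ε A s) (hA : IsUnit A) : ∀ a ∈ s, a ≠ 0 := by
  obtain ⟨d, rfl, P, h2⟩ := h
  have h3 : IsUnit (diagonal d * P.1) := h2.eq ▸ P.isUnit.mul (hA.map ε.mapMatrix)
  have h4 := isUnit_diagonal.1 (isUnit_of_mul_isUnit_left h3)
  intro a ha
  obtain ⟨i, -, rfl⟩ := Multiset.mem_map.1 ha
  exact ((Pi.isUnit_iff.1 h4) i).ne_zero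

theorem isUnit (h : IsDg ε A s) (hs : ∀ a ∈ s, a ≠ 0) : IsUnit A := by
  classical
  apply isUnit_of_rank
  have := h.count_add 0
  rw [zero_smul, sub_zero, rank_map_ringHom, Multiset.count_eq_zero_of_notMem
    (fun h => hs 0 h rfl)] at this
  omega

theorem inv (h : IsDg ε A s) (hB : A * B = 1) : IsDg ε B (s.map (·⁻¹)) := by
  have h0 := h.ne_zero (IsUnit.of_mul_eq_one _ hB)
  obtain ⟨d, rfl, P, h2⟩ := h
  refine ⟨d⁻¹, by simp, P, ?_⟩
  have h3 : diagonal d⁻¹ * diagonal d = 1 := by
    rw [diagonal_mul_diagonal, ← diagonal_one]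
    congr 1; ext i
    exact inv_mul_cancel₀ (h0 _ (Multiset.mem_map_of_mem _ (Finset.mem_univ i)))
  have h4 : A.map ε * B.map ε = 1 := by rw [← Matrix.map_mul, hB]; simp
  change P.1 * _ = _ * P.1
  rw [← Matrix.mul_one (_ * P.1), ← h4, Matrix.mul_assoc, ← Matrix.mul_assoc P.1, h2.eq,
    ← Matrix.mul_assoc, ← Matrix.mul_assoc, h3, Matrix.one_mul]

theorem eq_smul_one_iff (h : IsDg ε A s) (c : F) : A = c • 1 ↔ ∀ a ∈ s, a = ε c := by
  classical
  have := h.count_add (ε c)
  have e : (A - c • 1).map ε = A.map ε - ε c • 1 := by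
    ext i j; by_cases h : i = j <;> simp [h]
  rw [← e, rank_map_ringHom, ← h.card_eq] at this
  rw [← sub_eq_zero, ← rank_eq_zero_iff']
  constructor
  · intro h1 a ha
    rw [h1, add_zero] at this
    exact ((Multiset.count_eq_card).1 (by convert this) a ha).symm
  · intro h1
    have h2 := (Multiset.count_eq_card (a := ε c) (s := s)).2 fun a ha => (h1 a ha).symm
    have h3 : @Multiset.count _ (Classical.decEq _) (ε c) s = s.card := by convert h2
    omega

theorem eq_one_iff (h : IsDg ε A s) : A = 1 ↔ ∀ a ∈ s, a = 1 := by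
  simpa using h.eq_smul_one_iff 1

theorem pow_eq_smul_iff (h : IsDg ε A s) (k : ℕ) (c : F) :
    A ^ k = c • 1 ↔ ∀ a ∈ s, a ^ k = ε c := by
  rw [(h.pow k).eq_smul_one_iff]; simp

theorem reindex (h : IsDg ε A s) (e : ι ≃ κ) : IsDg ε (Matrix.reindex e e A) s := by
  obtain ⟨d, rfl, h2⟩ := h
  refine ⟨d ∘ e.symm, ?_, ?_⟩
  · rw [← Multiset.map_map, Multiset.map_univ_val_equiv]
  · have := (Matrix.reindexAlgEquiv E E e).toMonoidHom.map_isConj h2
    change IsConj (Matrix.reindex e e (A.map ε)) (Matrix.reindex e e (diagonal d)) at this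
    rw [reindex_apply e e (diagonal d), submatrix_diagonal_equiv] at this
    exact this

end IsDg

theorem exists_isDg (ε : F →+* E) (A : Matrix ι ι F) (S : Finset E)
    (h : aeval (A.map ε) (∏ a ∈ S, (X - C a)) = 0) : ∃ s, IsDg ε A s ∧ ∀ a ∈ s, a ∈ S := by
  classical
  set M := A.map ε
  have key : ∀ T : Finset E, LinearMap.ker (aeval (toLin' M) (∏ a ∈ T, (X - C a))) ≤
      Submodule.span E {v | ∃ a ∈ T, M *ᵥ v = a • v} := by
    intro T
    induction T using Finset.induction_on with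
    | empty => simp [Module.End.one_eq_id]
    | insert a T ha ih =>
      rw [Finset.prod_insert ha, ← sup_ker_aeval_eq_ker_aeval_mul_of_coprime _
        (IsCoprime.prod_right fun b hb => isCoprime_X_sub_C_of_isUnit_sub
          (sub_ne_zero.2 (by rintro rfl; exact ha hb)).isUnit)]
      refine sup_le (fun v hv => Submodule.subset_span ⟨a, by simp, ?_⟩)
        (ih.trans (Submodule.span_mono fun v ⟨b, hb, hv⟩ => ⟨b, by simp [hb], hv⟩))
      simpa [sub_eq_zero] using hv
  have h1 := key S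
  rw [toLin'_aeval, h, map_zero, LinearMap.ker_zero, top_le_iff] at h1
  obtain ⟨P, hP⟩ := exists_GL_cols _ h1
  choose d hd1 hd2 using hP
  refine ⟨_, ⟨d, rfl, IsConj.symm ⟨P, ?_⟩⟩, by simp [hd1]⟩
  ext i j
  have := congrFun (hd2 j) i
  simp only [mul_diagonal]
  rw [mul_comm]
  exact this.symm

theorem exists_isDg_pow (ε : F →+* E) {A : Matrix ι ι F} {r : ℕ} (hr : 0 < r) {ζ α : E}
    (hζ : IsPrimitiveRoot ζ r) {c : F} (hc : c ≠ 0) (hα : α ^ r = ε c) (h : A ^ r = c • 1) :
    ∃ s, IsDg ε A s := by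
  classical
  have h0 : α ≠ 0 := by
    rintro rfl
    rw [zero_pow hr.ne', eq_comm, map_eq_zero] at hα
    exact hc hα
  obtain ⟨s, hs, -⟩ := exists_isDg ε A ((Finset.range r).image fun i => ζ ^ i * α) (by
    rw [Finset.prod_image fun i hi j hj h => hζ.injOn_pow hi hj (mul_right_cancel₀ h0 h),
      ← X_pow_sub_C_eq_prod hζ hr hα, map_sub, map_pow, aeval_X, aeval_C, ← Matrix.map_pow, h,
      sub_eq_zero]
    ext i j; by_cases h : i = j <;> simp [h, algebraMap_matrix_apply])
  exact ⟨s, hs⟩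

theorem FExt.descent [Finite E] (D : FExt F E) (π : Equiv.Perm ι) (hπ : π ^ orderOf D.τ = 1) :
    ∃ h : GL ι E, ∀ M : Matrix ι ι E, (∀ x y, M (π x) (π y) = D.τ (M x y)) →
      (∃ A : Matrix ι ι F, A.map D.ε = h⁻¹.1 * M * h.1) ∧
      (∃ H : Matrix ι ι F, H.map D.ε = h.1ᵀ * M * h.1) := by
  let g : Equiv.Perm ι →* Matrix ι ι E := permMatrixHom
  have hg : ∀ (π : Equiv.Perm ι) (M : Matrix ι ι E), g π * M = M.submatrix π.symm id :=
    fun π M => PEquiv.toMatrix_toPEquiv_mul _ _
  have hτ : ∀ π, (g π).map D.τ = g π := fun π => by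
    rw [← Matrix.mul_one (g π), hg]
    ext i j; simp [one_apply, apply_ite D.τ]
  have hm : ∀ k, mnorm D.τ (g π) k = g (π ^ k) := fun k => by
    induction k with
    | zero => simp [mnorm]
    | succ k ih => rw [mnorm, ih, hτ, pow_succ', map_mul]
  obtain ⟨h, hh⟩ := hilbert90_GL D.τ (g π) (by rw [hm, hπ, map_one])
  have h1 : h.1.map D.τ = h.1.submatrix π id := by
    rw [hg] at hh
    conv_rhs => rw [← hh]
    ext i j; simp
  have h2 : h⁻¹.1.map D.τ = h⁻¹.1.submatrix id π := by
    have e1 : h⁻¹.1.map D.τ * h.1.map D.τ = 1 := by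
      rw [← Matrix.map_mul, Units.inv_mul]; simp
    have e2 : h⁻¹.1.submatrix id π * h.1.map D.τ = 1 := by
      rw [h1, submatrix_mul_equiv, Units.inv_mul]; simp
    exact left_inv_eq_left_inv e1 e2
  refine ⟨h, fun M hM => ?_⟩
  have h3 : M.map D.τ = M.submatrix π π := by ext i j; simp [hM]
  refine ⟨D.exists_map ?_, D.exists_map ?_⟩
  · rw [Matrix.map_mul, Matrix.map_mul, h1, h2, h3, submatrix_mul_equiv, submatrix_mul_equiv]; rfl
  · rw [Matrix.map_mul, Matrix.map_mul, transpose_map, h1, h3, transpose_submatrix,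
      submatrix_mul_equiv, submatrix_mul_equiv]; rfl

section Enum
variable [DecidableEq E]

theorem count_τ (τ : E ≃+* E) {s : Multiset E} (h : s.map τ = s) (a : E) :
    s.count (τ a) = s.count a := by
  conv_lhs => rw [← h]
  exact Multiset.count_map_eq_count' _ _ τ.injective _

/-- the permutation of the enumerated multiset -/
def enumPerm (τ : E ≃+* E) {s : Multiset E} (h : s.map τ = s) : Equiv.Perm s.toEnumFinset :=
  Equiv.Perm.subtypePerm (Equiv.prodCongr τ.toEquiv (Equiv.refl ℕ)) fun p => by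
    simp only [Multiset.mem_toEnumFinset]
    change p.2 < s.count (τ p.1) ↔ _
    rw [count_τ τ h]

theorem enumPerm_val (τ : E ≃+* E) {s : Multiset E} (h : s.map τ = s) (p : s.toEnumFinset) :
    (enumPerm τ h p).1 = (τ p.1.1, p.1.2) := rfl

theorem enumPerm_pow (τ : E ≃+* E) {s : Multiset E} (h : s.map τ = s) :
    enumPerm τ h ^ orderOf τ = 1 := by
  have : ∀ k p, ((enumPerm τ h ^ k) p).1 = ((τ ^ k) p.1.1, p.1.2) := fun k => by
    induction k with
    | zero => intro p; rfl
    | succ k ih => intro p; rw [pow_succ, pow_succ, Equiv.Perm.mul_apply, ih]; rfl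
  ext1 p
  apply Subtype.ext
  rw [this, pow_orderOf_eq_one]; rfl

theorem map_univ_enum (s : Multiset E) :
    (Finset.univ : Finset s.toEnumFinset).val.map (fun p => p.1.1) = s := by
  conv_rhs => rw [← s.map_toEnumFinset_fst]
  change Multiset.map (Prod.fst ∘ Subtype.val) _ = _
  rw [← Multiset.map_map, Finset.univ_eq_attach, Finset.attach_val, Multiset.attach_map_val]

end Enum

theorem FExt.exists_isDg [Finite E] (D : FExt F E) {s : Multiset E} (h : s.map D.τ = s)
    (hc : s.card = Fintype.card ι) : ∃ A : Matrix ι ι F, IsDg D.ε A s := by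
  classical
  obtain ⟨P, hP⟩ := D.descent _ (enumPerm_pow D.τ h)
  obtain ⟨⟨A, hA⟩, -⟩ := hP (diagonal fun p => p.1.1) fun x y => by
    by_cases hxy : x = y
    · subst hxy; simp [enumPerm_val]
    · simp [hxy]
  have : IsDg D.ε A s := ⟨_, map_univ_enum s, P, by
    rw [hA]; change _ * _ = _ * _; simp only [← Matrix.mul_assoc, Units.mul_inv, Matrix.one_mul]⟩
  exact ⟨_, this.reindex (Fintype.equivOfCardEq (by simp [hc]))⟩

theorem FExt.exists_isDg_alt [Finite E] [DecidableEq E] (D : FExt F E) {s : Multiset E}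
    (h : s.map D.τ = s) (hinv : s.map (·⁻¹) = s) (h2 : ∀ a ∈ s, a ≠ 0 ∧ (a ^ 2 = 1 → a = 1))
    (he : Even (s.count 1)) : ∃ A H : Matrix s.toEnumFinset s.toEnumFinset F,
      IsDg D.ε A s ∧ IsUnit H ∧ AltM H ∧ Aᵀ * H * A = H := by
  obtain ⟨P, hP⟩ := D.descent _ (enumPerm_pow D.τ h)
  obtain ⟨⟨A, hA⟩, -⟩ := hP (diagonal fun p => p.1.1) fun x y => by
    by_cases hxy : x = y
    · subst hxy; simp [enumPerm_val]
    · simp [hxy]
  have hA' : IsDg D.ε A s := ⟨_, map_univ_enum s, P, by
    rw [hA]; change _ * _ = _ * _; simp only [← Matrix.mul_assoc, Units.mul_inv, Matrix.one_mul]⟩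
  have hci : ∀ a, s.count a⁻¹ = s.count a := fun a => by
    conv_lhs => rw [← hinv]
    exact Multiset.count_map_eq_count' _ _ inv_injective _
  have hm : ∀ p : s.toEnumFinset, p.1.2 < s.count p.1.1 := fun p =>
    (Multiset.mem_toEnumFinset _ _).1 p.2
  have hm' : ∀ p : s.toEnumFinset, p.1.1 ∈ s := fun p => Multiset.mem_of_mem_toEnumFinset p.2
  let j : s.toEnumFinset → s.toEnumFinset := fun p =>
    ⟨(p.1.1⁻¹, if p.1.1 = 1 then s.count 1 - 1 - p.1.2 else p.1.2), by
      have := hm p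
      rw [Multiset.mem_toEnumFinset, hci]
      split_ifs with h1
      · rw [h1] at this ⊢; simp only; omega
      · exact this⟩
  have hj : ∀ p, j (j p) = p := fun p => by
    have := hm p
    apply Subtype.ext
    by_cases h1 : p.1.1 = 1
    · rw [h1] at this
      refine Prod.ext (by simp [j]) ?_
      simp only [j, h1, inv_one, if_true]; omega
    · simp [j, h1]
  let w : s.toEnumFinset → E := fun p =>
    if p.1.1 = 1 then (if 2 * p.1.2 < s.count 1 then 1 else -1) else p.1.1 - p.1.1⁻¹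
  have hw : ∀ p, w (j p) = -w p := fun p => by
    have := hm p
    by_cases h1 : p.1.1 = 1
    · rw [h1] at this
      obtain ⟨k, hk⟩ := he
      simp only [w, j, h1, inv_one, if_true]
      split_ifs <;> first | omega | simp
    · simp [w, j, h1]
  have hw0 : ∀ p, w p ≠ 0 := fun p => by
    by_cases h1 : p.1.1 = 1
    · simp only [w, h1, if_true]; split_ifs <;> simp
    · simp only [w, h1, if_false]
      intro h3
      have h4 := (h2 _ (hm' p)).1
      exact h1 ((h2 _ (hm' p)).2 (by field_simp at h3; linear_combination h3))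
  have hjne : ∀ p, j p ≠ p := fun p h3 => by
    have := hm p
    by_cases h1 : p.1.1 = 1
    · rw [h1] at this
      obtain ⟨k, hk⟩ := he
      have := congrArg (fun p => p.1.2) h3
      simp only [j, h1, if_true] at this
      omega
    · have h5 : p.1.1⁻¹ = p.1.1 := congrArg (fun p => p.1.1) h3
      have h4 := (h2 _ (hm' p)).1
      exact h1 ((h2 _ (hm' p)).2 (by field_simp at h5; linear_combination -h5))
  have hπj : ∀ p, j (enumPerm D.τ h p) = enumPerm D.τ h (j p) := fun p => by
    apply Subtype.ext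
    simp [j, enumPerm_val]
  have hπw : ∀ p, w (enumPerm D.τ h p) = D.τ (w p) := fun p => by
    by_cases h1 : p.1.1 = 1
    · by_cases h3 : 2 * p.1.2 < s.count 1 <;> simp [w, enumPerm_val, h1, h3]
    · simp [w, enumPerm_val, h1]
  let H₀ : Matrix s.toEnumFinset s.toEnumFinset E := Matrix.of fun x y => if y = j x then w x else 0
  obtain ⟨-, H, hH⟩ := hP H₀ fun x y => by
    simp only [H₀, of_apply, hπj, hπw, EmbeddingLike.apply_eq_iff_eq]
    split_ifs <;> simp
  have hjiff : ∀ x y, y = j x ↔ x = j y := fun x y =>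
    ⟨by rintro rfl; rw [hj], by rintro rfl; rw [hj]⟩
  have a0 : AltM H₀ := altM_of_skew (by
    ext x y
    simp only [H₀, transpose_apply, of_apply, Matrix.neg_apply, hjiff y x]
    split_ifs with h3
    · rw [h3, hw]
    · simp) fun x => by simp [H₀, (hjne x).symm]
  have u0 : IsUnit H₀ := IsUnit.of_mul_eq_one
    (Matrix.of fun y z => if y = j z then (w z)⁻¹ else 0) (by
      ext x z
      simp only [H₀, mul_apply, of_apply, ite_mul, zero_mul, Finset.sum_ite_eq', Finset.mem_univ,
        if_true, one_apply]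
      split_ifs with h3 h4 h4
      · rw [h4, mul_inv_cancel₀ (hw0 _)]
      · exact absurd (by rw [← hj x, h3, hj]) h4
      · exact absurd (by rw [h4]) h3
      · simp)
  have i0 : (diagonal fun p : s.toEnumFinset => p.1.1)ᵀ * H₀ * (diagonal fun p => p.1.1) = H₀ := by
    ext x y
    simp only [diagonal_transpose, mul_diagonal, diagonal_mul, H₀, of_apply]
    split_ifs with h3
    · have := (h2 _ (hm' x)).1
      rw [h3]; simp only [j]; field_simp
    · simp
  have inj := Matrix.map_injective (m := s.toEnumFinset) (n := s.toEnumFinset) D.ε.injective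
  refine ⟨A, H, hA', ?_, ?_, inj ?_⟩
  · apply isUnit_of_rank
    rw [← rank_map_ringHom D.ε, hH, rank_of_isUnit _
      ((((isUnit_transpose _).2 P.isUnit).mul u0).mul P.isUnit)]
  · have := a0.congr P.1
    rw [← hH] at this
    refine altM_of_skew (inj ?_) fun x => D.ε.injective ?_
    · simp only
      rw [transpose_map, this.transpose_eq]; ext; simp
    · simpa using this.diag x
  · simp only
    rw [Matrix.map_mul, Matrix.map_mul, transpose_map, hA, hH]
    conv_rhs => rw [← i0]
    have e : P.1ᵀ * P⁻¹.1ᵀ = 1 := by rw [← transpose_mul, Units.inv_mul, transpose_one]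
    have e' : P⁻¹.1ᵀ * P.1ᵀ = 1 := by rw [← transpose_mul, Units.mul_inv, transpose_one]
    simp only [transpose_mul, Matrix.mul_assoc]
    rw [← Matrix.mul_assoc P⁻¹.1ᵀ, e', Matrix.one_mul, ← Matrix.mul_assoc P.1 P⁻¹.1,
      Units.mul_inv, Matrix.one_mul]

theorem FExt.exists_isDg_Sp [Finite E] [DecidableEq E] (D : FExt F E) {s : Multiset E}
    (h : s.map D.τ = s) (hinv : s.map (·⁻¹) = s) (h2 : ∀ a ∈ s, a ≠ 0 ∧ (a ^ 2 = 1 → a = 1))
    (he : Even (s.count 1)) {m : ℕ} (hc : s.card = 2 * m) :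
    ∃ g : symplecticGroup (Fin m) F, IsDg D.ε g.1 s := by
  obtain ⟨A, H, h1, h3, h4, h5⟩ := D.exists_isDg_alt h hinv h2 he
  have hcard : Fintype.card s.toEnumFinset = Fintype.card (Fin m ⊕ Fin m) := by simp [hc, two_mul]
  let e := Fintype.equivOfCardEq hcard
  let ρ := Matrix.reindexAlgEquiv F F e
  obtain ⟨P, hP⟩ := alt_congr_GL (h3.map ρ) (altM_of_skew (H := ρ H) (by
    ext i j; exact congrFun (congrFun h4.transpose_eq _) _) fun i => h4.diag _) isUnit_J (altM_J _)
  have h6 : (ρ A)ᵀ * ρ H * ρ A = ρ H := by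
    conv_rhs => rw [← h5, map_mul, map_mul]
    rfl
  refine ⟨⟨P⁻¹.1 * ρ A * P.1, SymplecticGroup.mem_iff'.2 ?_⟩, (h1.reindex e).of_isConj ⟨P⁻¹, ?_⟩⟩
  · rw [← hP]
    conv_rhs => rw [← h6]
    have e' : P⁻¹.1ᵀ * P.1ᵀ = 1 := by rw [← transpose_mul, Units.mul_inv, transpose_one]
    simp only [transpose_mul, Matrix.mul_assoc]
    rw [← Matrix.mul_assoc P⁻¹.1ᵀ, e', Matrix.one_mul, ← Matrix.mul_assoc P.1 P⁻¹.1,
      Units.mul_inv, Matrix.one_mul]
  · change _ * _ = _ * _
    simp only [Matrix.mul_assoc, Units.mul_inv, Matrix.mul_one]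
    rfl

end CfsgH1
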