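import Cfsg.Agent.H1.Sp4

set_option autoImplicit false
set_option maxHeartbeats 400000
set_option linter.unusedSectionVars false

namespace CfsgH1

/-- a finite ring with anti-involution mapping onto a ring with nil kernel -/
structure InvData (A L : Type*) [Ring A] [Ring L] where
  s : A →+ A
  sL : L →+ L
  π : A →+* L
  t : A
  hmul : ∀ x y, s (x * y) = s y * s x
  hone : s 1 = 1
  hss : ∀ x, s (s x) = x
  surj : Function.Surjective π
  nil : ∀ x, π x = 0 → IsNilpotent x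
  comm : ∀ x, π (s x) = sL (π x)
  htc : ∀ x, t * x = x * t
  ht : t + s t = 1

namespace InvData
variable {A L : Type*} [Ring A] [Ring L] [Finite A] (D : InvData A L)

theorem stc (x : A) : D.s D.t * x = x * D.s D.t := by
  rw [eq_sub_of_add_eq' D.ht, sub_mul, mul_sub, D.htc]; simp

theorem isUnit_of_one {x : A} (h : D.π x = 1) : IsUnit x := by
  simpa using (D.nil (x - 1) (by simp [h])).isUnit_add_one

theorem exists_lift_norm {h : A} (hh : D.s h = h) (h1 : D.π h = 1) :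
    ∃ w, D.π w = 1 ∧ D.s w * w = h := by
  let n := D.s D.t * D.t
  have hn : ∀ x, n * x = x * n := fun x => by
    rw [mul_assoc, D.htc, ← mul_assoc, D.stc, mul_assoc]
  have hsn : D.s n = n := by rw [D.hmul, D.hss]
  let C := Subring.centralizer (Subring.centralizer ({h} : Set A) : Set A)
  have hC : h ∈ C := Subring.mem_centralizer_iff.2 fun g hg =>
    (Subring.mem_centralizer_iff.1 hg h rfl).symm
  have hCC : ∀ y ∈ C, ∀ z ∈ C, y * z = z * y := fun y hy z hz =>
    Subring.mem_centralizer_iff.1 hz y (Subring.mem_centralizer_iff.2 (by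
      rintro _ rfl
      exact Subring.mem_centralizer_iff.1 hy _ (Subring.mem_centralizer_iff.2 (by rintro _ rfl; rfl))))
  have hnC : n ∈ C := Subring.mem_centralizer_iff.2 fun g _ => (hn g).symm
  let T := {y : A // D.s y = y ∧ D.π y = 0 ∧ y ∈ C}
  let f : T → T := fun y => ⟨y.1 + n * (y.1 * y.1), by
    rw [map_add, D.hmul, D.hmul, y.2.1, hsn, hn], by simp [y.2.2.1],
    add_mem y.2.2.2 (mul_mem hnC (mul_mem y.2.2.2 y.2.2.2))⟩
  have hf : Function.Injective f := fun y z e => by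
    have e1 : y.1 + n * (y.1 * y.1) = z.1 + n * (z.1 * z.1) := congrArg Subtype.val e
    have h2 : IsUnit (1 + n * (y.1 + z.1)) := D.isUnit_of_one (by simp [y.2.2.1, z.2.2.1])
    apply Subtype.ext
    rw [← sub_eq_zero]
    apply h2.mul_right_eq_zero.1
    rw [← sub_eq_zero.2 e1]
    have := hCC _ y.2.2.2 _ z.2.2.2
    simp only [add_mul, mul_add, mul_sub, one_mul, mul_assoc, this]
    abel
  obtain ⟨y, hy⟩ := Finite.injective_iff_surjective.1 hf ⟨h - 1, by rw [map_sub, hh, D.hone],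
    by simp [h1], sub_mem hC (one_mem _)⟩
  have e1 : y.1 + n * (y.1 * y.1) = h - 1 := congrArg Subtype.val hy
  refine ⟨1 + D.t * y.1, by simp [y.2.2.1], ?_⟩
  rw [map_add, D.hone, D.hmul, y.2.1, eq_add_of_sub_eq e1.symm, ← D.stc]
  have e2 : y.1 = D.t * y.1 + D.s D.t * y.1 := by rw [← add_mul, D.ht, one_mul]
  have e3 : D.s D.t * y.1 * (D.t * y.1) = n * (y.1 * y.1) := by
    rw [mul_assoc, ← mul_assoc y.1, ← D.htc, mul_assoc, mul_assoc]
  rw [add_mul, mul_add, mul_add, e3]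
  conv_rhs => rw [e2]
  simp only [mul_one, one_mul, ← e2]
  conv_rhs => rw [e2]
  simp only [← e2]
  rw [add_comm _ (1 : A), add_assoc, ← add_assoc (D.t * y.1), ← e2]

theorem exists_norm_of_levi {h : A} (hh : D.s h = h) {X : L} (hX : D.sL X * X = D.π h)
    (hu : IsUnit h) : ∃ x, D.π x = X ∧ D.s x * x = h := by
  obtain ⟨x, rfl⟩ := D.surj X
  have h1 : IsUnit (D.s x * x) :=
    isUnit_of_map_of_nilpotent D.π D.surj D.nil (by rw [map_mul, D.comm, hX]; exact hu.map _)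
  obtain ⟨x, rfl⟩ : IsUnit x := by
    obtain ⟨b, hb⟩ := h1.exists_left_inv
    rw [← mul_assoc] at hb
    exact IsUnit.of_mul_eq_one_right _ hb
  have e1 : D.s x * D.s x⁻¹.1 = 1 := by rw [← D.hmul, Units.inv_mul, D.hone]
  have e2 : D.s x⁻¹.1 * D.s x = 1 := by rw [← D.hmul, Units.mul_inv, D.hone]
  obtain ⟨w, hw1, hw2⟩ := D.exists_lift_norm (h := D.s x⁻¹.1 * h * x⁻¹.1)
    (by rw [D.hmul, D.hmul, D.hss, hh, mul_assoc]) (by
      rw [map_mul, map_mul, ← hX, ← D.comm, ← map_mul, ← map_mul, ← map_mul, ← mul_assoc, e2]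
      simp)
  refine ⟨w * x, by simp [hw1], ?_⟩
  rw [D.hmul, mul_assoc, ← mul_assoc _ w, hw2, ← mul_assoc, ← mul_assoc, ← mul_assoc, e1]
  simp

theorem card_ker_eq : Nat.card {x : A // D.π x = 0} =
    Nat.card {x : A // D.π x = 0 ∧ D.s x = x} * Nat.card {x : A // D.π x = 0 ∧ D.s x = -x} := by
  refine card_eq_mul_of_fibers (fun x => ⟨x.1 + D.s x.1, by simp [D.comm, x.2],
    by rw [map_add, D.hss, add_comm]⟩) fun y => ?_
  have e : D.t * y.1 + D.s (D.t * y.1) = y.1 := by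
    rw [D.hmul, y.2.2, ← D.stc, ← add_mul, D.ht, one_mul]
  refine Nat.card_congr ⟨fun x => ⟨x.1.1 - D.t * y.1, by simp [x.1.2, y.2.1], ?_⟩,
    fun k => ⟨⟨k.1 + D.t * y.1, by simp [k.2.1, y.2.1]⟩, Subtype.ext ?_⟩,
    fun x => by simp, fun k => by simp⟩
  · have := (congrArg Subtype.val x.2).trans e.symm
    simp only at this
    rw [map_sub, neg_sub, sub_eq_sub_iff_add_eq_add, add_comm, ← this, add_comm]
  · simp only
    rw [map_add, k.2.2, add_add_add_comm, e]; simp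

theorem card_unitary_one : Nat.card {x : A // D.π x = 1 ∧ D.s x * x = 1} =
    Nat.card {x : A // D.π x = 0 ∧ D.s x = -x} := by
  have h1 : Nat.card {x : A // D.π x = 1} = Nat.card {x : A // D.π x = 1 ∧ D.s x = x} *
      Nat.card {x : A // D.π x = 1 ∧ D.s x * x = 1} := by
    have hs1 : D.sL 1 = 1 := by rw [← map_one D.π, ← D.comm, D.hone]
    refine card_eq_mul_of_fibers (fun x => ⟨D.s x.1 * x.1, by simp [D.comm, x.2, hs1],
      by rw [D.hmul, D.hss]⟩) fun y => ?_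
    obtain ⟨w, hw1, hw2⟩ := D.exists_lift_norm y.2.2 y.2.1
    obtain ⟨w, rfl⟩ := D.isUnit_of_one hw1
    have e1 : D.π w⁻¹.1 = 1 := by
      have := congrArg D.π w.mul_inv
      rwa [map_mul, hw1, one_mul, map_one] at this
    have e2 : D.s w⁻¹.1 * D.s w = 1 := by rw [← D.hmul, Units.mul_inv, D.hone]
    refine Nat.card_congr ⟨fun x => ⟨x.1.1 * w⁻¹.1, by simp [x.1.2, e1], ?_⟩,
      fun k => ⟨⟨k.1 * w, by simp [k.2.1, hw1]⟩, Subtype.ext ?_⟩, fun x => by simp, fun k => by simp⟩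
    · have : D.s x.1.1 * x.1.1 = y.1 := congrArg Subtype.val x.2
      rw [D.hmul, mul_assoc, ← mul_assoc _ x.1.1, this, ← hw2, mul_assoc, Units.mul_inv, mul_one, e2]
    · simp only
      rw [D.hmul, mul_assoc, ← mul_assoc _ k.1, k.2.2, one_mul, hw2]
  have h2 : Nat.card {x : A // D.π x = 1} = Nat.card {x : A // D.π x = 0} :=
    Nat.card_congr (Equiv.subtypeEquiv (Equiv.subRight 1) fun x => by simp [sub_eq_zero])
  have h3 : Nat.card {x : A // D.π x = 1 ∧ D.s x = x} = Nat.card {x : A // D.π x = 0 ∧ D.s x = x} :=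
    Nat.card_congr (Equiv.subtypeEquiv (Equiv.subRight 1) fun x => by simp [sub_eq_zero, D.hone])
  rw [h2, h3, card_ker_eq] at h1
  haveI : Nonempty {x : A // D.π x = 0 ∧ D.s x = x} := ⟨⟨0, by simp⟩⟩
  exact (Nat.eq_of_mul_eq_mul_left Nat.card_pos h1).symm

theorem card_unitary : Nat.card {x : A // D.s x * x = 1} =
    Nat.card {X : L // D.sL X * X = 1} * Nat.card {x : A // D.π x = 0 ∧ D.s x = -x} := by
  haveI : Finite L := Finite.of_surjective _ D.surj
  rw [← card_unitary_one]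
  refine card_eq_mul_of_fibers (fun x => ⟨D.π x.1, by rw [← D.comm, ← map_mul, x.2, map_one]⟩)
    fun X => ?_
  obtain ⟨x₀, h1, h2⟩ := D.exists_norm_of_levi D.hone (X := X.1) (by rw [X.2, map_one]) isUnit_one
  have h3 : x₀ * D.s x₀ = 1 := mul_eq_one_comm.1 h2
  refine Nat.card_congr ⟨fun x => ⟨D.s x₀ * x.1.1, ?_, ?_⟩,
    fun k => ⟨⟨x₀ * k.1, ?_⟩, Subtype.ext (by simp [k.2.1, h1])⟩, fun x => ?_, fun k => ?_⟩
  · have : D.π x.1.1 = X.1 := congrArg Subtype.val x.2
    rw [map_mul, this, D.comm, h1, X.2]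
  · rw [D.hmul, D.hss, mul_assoc, ← mul_assoc x₀, h3, one_mul, x.1.2]
  · rw [D.hmul, mul_assoc, ← mul_assoc _ x₀, h2, one_mul, k.2.2]
  · simp [← mul_assoc, h3]
  · simp [← mul_assoc, h2]

theorem card_skew_sq {θ : A} (hθ : IsUnit θ) (hc : ∀ x, θ * x = x * θ) (hs : D.s θ = -θ) :
    Nat.card {x : A // D.π x = 0 ∧ D.s x = -x} ^ 2 = Nat.card {x : A // D.π x = 0} := by
  rw [card_ker_eq, sq]
  congr 1
  obtain ⟨θ, rfl⟩ := hθ
  refine Nat.card_congr (Equiv.subtypeEquiv θ.mulLeft fun x => ?_)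
  simp only [Units.mulLeft_apply, map_mul, D.hmul, hs, (θ.isUnit.map D.π).mul_right_eq_zero]
  rw [mul_neg, ← hc, ← mul_neg, Units.mul_right_inj, neg_eq_iff_eq_neg]

end InvData

end CfsgH1
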