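import Cfsg.Agent.H1.InvLift
import Cfsg.Agent.H1.GU1

set_option autoImplicit false
set_option maxHeartbeats 400000
set_option linter.unusedSectionVars false

namespace CfsgH1

open Matrix Module CfsgH7

variable {κ : Type*} [Fintype κ] [DecidableEq κ] {d : κ → ℕ} {F : Type*} [Field F]

/-- reversal inside each block -/
def revJ (d : κ → ℕ) : JI d ≃ JI d := Equiv.sigmaCongrRight fun _ => Fin.revPerm

theorem revJ_fst (a : JI d) : (revJ d a).1 = a.1 := rfl

theorem revJ_snd (a : JI d) : ((revJ d a).2 : ℕ) = d a.1 - (a.2 + 1) := Fin.val_rev _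

theorem revJ_revJ (a : JI d) : revJ d (revJ d a) = a :=
  JI.ext' rfl (by have := a.2.2; rw [revJ_snd, revJ_snd, revJ_fst]; omega)

theorem nilJ_rev : (nilJ d F)ᵀ.submatrix (revJ d) (revJ d) = nilJ d F := by
  ext a b
  simp only [submatrix_apply, transpose_apply, shJ_apply, revJ_fst, revJ_snd]
  have := a.2.2
  have := b.2.2
  by_cases h : a.1 = b.1
  · have h3 := congrArg d h
    simp only [h, true_and]
    congr 1
    apply propext
    omega
  · simp [h, Ne.symm h]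

theorem transpose_rev_mem {x : Matrix (JI d) (JI d) F} (hx : x ∈ comJ d F) :
    xᵀ.submatrix (revJ d) (revJ d) ∈ comJ d F := by
  rw [mem_comJ] at hx ⊢
  conv_lhs => rw [← nilJ_rev]
  conv_rhs => rw [← nilJ_rev]
  rw [submatrix_mul_equiv, submatrix_mul_equiv, ← transpose_mul, ← transpose_mul, hx]

/-- bottom index of a block -/
def botJ (hd : ∀ k, 1 ≤ d k) (k : κ) : JI d := revJ d (topJ hd k)

theorem piM_transpose_rev (hd : ∀ k, 1 ≤ d k) {x : Matrix (JI d) (JI d) F} (hx : x ∈ comJ d F)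
    (i : ℕ) : piM hd (xᵀ.submatrix (revJ d) (revJ d)) i = (piM hd x i)ᵀ := by
  ext ⟨a, ha⟩ ⟨b, hb⟩
  have h1 := hd a
  have := comJ_diag hx (k := b) (l := a) (i := i - 1) (by omega) (by omega)
  simp only [piM_apply, submatrix_apply, transpose_apply]
  refine Eq.trans ?_ this
  congr 1 <;> exact JI.ext' rfl (by simp [revJ_snd, revJ_fst, topJ, ha, hb])

theorem isUnit_unip : IsUnit (1 + nilJ d F) := nilJ_isNilpotent.isUnit_one_add

theorem unip_mul_inv : (1 + nilJ d F) * (1 + nilJ d F)⁻¹ = 1 :=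
  mul_nonsing_inv _ ((isUnit_iff_isUnit_det _).1 isUnit_unip)

theorem unip_inv_mul : (1 + nilJ d F)⁻¹ * (1 + nilJ d F) = 1 :=
  nonsing_inv_mul _ ((isUnit_iff_isUnit_det _).1 isUnit_unip)

/-- the adjoint of the nilpotent part -/
noncomputable def MJ (d : κ → ℕ) (F : Type*) [Field F] : Matrix (JI d) (JI d) F :=
  (1 + nilJ d F)⁻¹ - 1

theorem commute_unip_inv : Commute (nilJ d F) (1 + nilJ d F)⁻¹ := by
  have := (unip_mul_inv (d := d) (F := F)).trans unip_inv_mul.symm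
  rwa [Matrix.add_mul, Matrix.mul_add, Matrix.one_mul, Matrix.mul_one, add_right_inj] at this

theorem MJ_eq : MJ d F = -(1 + nilJ d F)⁻¹ * nilJ d F := by
  have := unip_inv_mul (d := d) (F := F)
  rw [Matrix.mul_add, Matrix.mul_one] at this
  rw [MJ, Matrix.neg_mul, eq_neg_iff_add_eq_zero, sub_add_eq_add_sub, this, sub_self]

theorem MJ_pow (e : ℕ) : MJ d F ^ e = (-(1 + nilJ d F)⁻¹) ^ e * shJ d F e := by
  rw [MJ_eq, (commute_unip_inv (d := d) (F := F)).symm.neg_left.mul_pow, nilJ_pow]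

/-- the intertwiner of `u` and `u⁻¹` -/
noncomputable def cJ (d : κ → ℕ) (F : Type*) [Field F] : Matrix (JI d) (JI d) F :=
  colMat d (MJ d F) (genJ d F)

theorem cJ_nilJ : cJ d F * nilJ d F = MJ d F * cJ d F :=
  colMat_mul_nilJ _ _ fun l => by rw [MJ_pow, ← mulVec_mulVec, shJ_genJ_eq_zero, mulVec_zero]

theorem cJ_unip : cJ d F * (1 + nilJ d F) = (1 + nilJ d F)⁻¹ * cJ d F := by
  rw [Matrix.mul_add, cJ_nilJ, MJ, Matrix.sub_mul]; simp

theorem cJ_unip_inv : cJ d F * (1 + nilJ d F)⁻¹ = (1 + nilJ d F) * cJ d F := by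
  calc _ = (1 + nilJ d F) * ((1 + nilJ d F)⁻¹ * cJ d F) * (1 + nilJ d F)⁻¹ := by
        rw [← Matrix.mul_assoc, unip_mul_inv, Matrix.one_mul]
    _ = _ := by
        rw [← cJ_unip, Matrix.mul_assoc, Matrix.mul_assoc, unip_mul_inv, Matrix.mul_one]

theorem cJ_MJ : cJ d F * MJ d F = nilJ d F * cJ d F := by
  rw [MJ, Matrix.mul_sub, cJ_unip_inv, Matrix.add_mul]; simp

theorem cJ_genJ (hd : ∀ k, 1 ≤ d k) (l : κ) : cJ d F *ᵥ genJ d F l = genJ d F l :=
  colMat_genJ _ _ (hd l)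

theorem cJ_mul_self (hd : ∀ k, 1 ≤ d k) : cJ d F * cJ d F = 1 := by
  rw [eq_colMat (g := cJ d F * cJ d F) (M := nilJ d F) (by
    rw [Matrix.mul_assoc, cJ_nilJ, ← Matrix.mul_assoc, cJ_MJ, Matrix.mul_assoc]),
    eq_colMat (g := 1) (M := nilJ d F) (by simp)]
  simp only [← mulVec_mulVec, cJ_genJ hd, one_mulVec]

theorem mul_cJ_top (hd : ∀ k, 1 ≤ d k) {μ : Type*} (x : Matrix μ (JI d) F) (a : μ) (l : κ) :
    (x * cJ d F) a (topJ hd l) = x a (topJ hd l) := by
  have := congrFun (congrArg (x *ᵥ ·) (cJ_genJ (F := F) hd l)) a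
  simp only [mulVec_mulVec] at this
  simpa only [genJ_eq_single (hd l), mulVec_single_one, col_apply, topJ] using this

theorem cJ_mul_top (hd : ∀ k, 1 ≤ d k) {μ : Type*} (x : Matrix (JI d) μ F) (k : κ) (b : μ) :
    (cJ d F * x) (topJ hd k) b = x (topJ hd k) b := by
  have : ∀ a, cJ d F (topJ hd k) a = (1 : Matrix (JI d) (JI d) F) (topJ hd k) a := by
    rintro ⟨l, j, hj⟩
    simp only [cJ, colMat, of_apply]
    rcases j with _ | j
    · simp only [pow_zero, one_mulVec, genJ, topJ, one_apply, JI.eq_iff]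
    · rw [pow_succ', MJ_eq, ← (commute_unip_inv (d := d) (F := F)).neg_right.eq, Matrix.mul_assoc,
        ← mulVec_mulVec,
        shJ_mulVec, one_apply_ne (fun h => by simpa [topJ] using (JI.eq_iff.1 h).2)]
      simp [topJ]
  rw [mul_apply]
  simp only [this]
  rw [← mul_apply, Matrix.one_mul]

theorem comJ_iff_unip {x : Matrix (JI d) (JI d) F} :
    x ∈ comJ d F ↔ x * (1 + nilJ d F) = (1 + nilJ d F) * x := by
  rw [mem_comJ, Matrix.mul_add, Matrix.add_mul, Matrix.mul_one, Matrix.one_mul, add_right_inj,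
    eq_comm]

theorem unip_inv_mem : (1 + nilJ d F)⁻¹ ∈ comJ d F := mem_comJ.2 commute_unip_inv

theorem nilJ_mem : nilJ d F ∈ comJ d F := mem_comJ.2 rfl

theorem comJ_comm_inv {x : Matrix (JI d) (JI d) F} (hx : x ∈ comJ d F) :
    x * (1 + nilJ d F)⁻¹ = (1 + nilJ d F)⁻¹ * x := by
  calc _ = (1 + nilJ d F)⁻¹ * ((1 + nilJ d F) * x) * (1 + nilJ d F)⁻¹ := by
        rw [← Matrix.mul_assoc, unip_inv_mul, Matrix.one_mul]
    _ = _ := by
        rw [← comJ_iff_unip.1 hx, Matrix.mul_assoc, Matrix.mul_assoc, unip_mul_inv, Matrix.mul_one]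

theorem cJ_conj_mem {x : Matrix (JI d) (JI d) F} (hx : x ∈ comJ d F) :
    cJ d F * x * cJ d F ∈ comJ d F := by
  rw [comJ_iff_unip, Matrix.mul_assoc, cJ_unip, ← Matrix.mul_assoc, Matrix.mul_assoc _ x,
    comJ_comm_inv hx, ← Matrix.mul_assoc, cJ_unip_inv]
  simp only [Matrix.mul_assoc]

/-- invariant forms -/
def InvF (H : Matrix (JI d) (JI d) F) : Prop := (1 + nilJ d F)ᵀ * H * (1 + nilJ d F) = H

theorem InvF.eq1 {H : Matrix (JI d) (JI d) F} (h : InvF H) : (nilJ d F)ᵀ * H = H * MJ d F := by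
  have := congrArg (· * (1 + nilJ d F)⁻¹) h
  simp only [Matrix.mul_assoc, unip_mul_inv, Matrix.mul_one] at this
  rw [MJ, Matrix.mul_sub, ← this, transpose_add, Matrix.add_mul]; simp

theorem InvF.eq2 {H : Matrix (JI d) (JI d) F} (h : InvF H) : (MJ d F)ᵀ * H = H * nilJ d F := by
  have := congrArg (((1 + nilJ d F)⁻¹)ᵀ * ·) h
  simp only [← Matrix.mul_assoc, ← transpose_mul, unip_mul_inv, transpose_one,
    Matrix.one_mul] at this
  rw [MJ, transpose_sub, Matrix.sub_mul, ← this, Matrix.mul_add]; simp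

theorem invF_of_eq1 {H : Matrix (JI d) (JI d) F} (h : (nilJ d F)ᵀ * H = H * MJ d F) : InvF H := by
  rw [InvF, transpose_add, Matrix.add_mul, h, MJ, Matrix.mul_sub, transpose_one, Matrix.one_mul,
    Matrix.mul_one, add_sub_cancel, Matrix.mul_assoc, unip_inv_mul, Matrix.mul_one]

theorem InvF.transpose {H : Matrix (JI d) (JI d) F} (h : InvF H) : InvF Hᵀ :=
  invF_of_eq1 (by rw [← transpose_mul, ← h.eq2, transpose_mul, transpose_transpose])

theorem InvF.sub {H H' : Matrix (JI d) (JI d) F} (h : InvF H) (h' : InvF H') : InvF (H - H') := by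
  rw [InvF, Matrix.mul_sub, Matrix.sub_mul, h, h']

theorem InvF.mul {H x y : Matrix (JI d) (JI d) F} (h : InvF H) (hx : x ∈ comJ d F)
    (hy : y ∈ comJ d F) : InvF (xᵀ * H * y) := by
  rw [InvF]
  conv_rhs => rw [← h]
  rw [← Matrix.mul_assoc, ← Matrix.mul_assoc, ← transpose_mul, comJ_iff_unip.1 hx,
    Matrix.mul_assoc _ y, comJ_iff_unip.1 hy, transpose_mul]
  simp only [Matrix.mul_assoc]

theorem InvF.mem {H : Matrix (JI d) (JI d) F} (h : InvF H) :
    (H * cJ d F).submatrix (revJ d) id ∈ comJ d F := by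
  rw [mem_comJ]
  conv_lhs => rw [← nilJ_rev]
  rw [submatrix_mul_equiv, ← Matrix.mul_assoc, h.eq1, Matrix.mul_assoc, ← cJ_nilJ,
    ← Matrix.mul_assoc]
  rfl

theorem invF_secM (hd : ∀ k, 1 ≤ d k) (Z : Matrix κ κ F) :
    InvF ((secM d Z * cJ d F).submatrix (revJ d) id) := by
  apply invF_of_eq1
  have h1 : (nilJ d F)ᵀ = (nilJ d F).submatrix (revJ d) (revJ d) := by
    conv_rhs => rw [← nilJ_rev]
    ext a b; simp [revJ_revJ]
  rw [h1, submatrix_mul_equiv, ← Matrix.mul_assoc, mem_comJ.1 (secM_mem Z), Matrix.mul_assoc,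
    ← cJ_MJ, ← Matrix.mul_assoc]
  rfl

/-- the induced forms on the multiplicity spaces -/
def Ymat (hd : ∀ k, 1 ≤ d k) (H : Matrix (JI d) (JI d) F) (i : ℕ) : Matrix (Fb d i) (Fb d i) F :=
  Matrix.of fun a b => H (botJ hd a.1) (topJ hd b.1)

theorem piM_eq_Ymat (hd : ∀ k, 1 ≤ d k) (H : Matrix (JI d) (JI d) F) (i : ℕ) :
    piM hd ((H * cJ d F).submatrix (revJ d) id) i = Ymat hd H i := by
  ext a b
  exact mul_cJ_top hd H _ _

theorem Ymat_secM (hd : ∀ k, 1 ≤ d k) (Z : Matrix κ κ F) (i : ℕ) (a b : Fb d i) :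
    Ymat hd ((secM d Z * cJ d F).submatrix (revJ d) id) i a b = Z a.1 b.1 := by
  simp only [Ymat, of_apply, submatrix_apply, botJ, revJ_revJ, id]
  rw [mul_cJ_top]
  exact piM_secM hd Z i a b

theorem InvF.isUnit_iff (hd : ∀ k, 1 ≤ d k) {H : Matrix (JI d) (JI d) F} (h : InvF H) :
    IsUnit H ↔ ∀ i, IsUnit (Ymat hd H i) := by
  simp only [← piM_eq_Ymat, ← isUnit_iff_piM hd h.mem]
  rw [isUnit_iff_isUnit_det ((H * cJ d F).submatrix _ _), det_permute, IsUnit.mul_iff,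
    ← isUnit_iff_isUnit_det, (IsUnit.of_mul_eq_one _ (cJ_mul_self hd)).mul_right_iff]
  exact (and_iff_right ((Units.isUnit _).map (Int.castRingHom F))).symm

theorem InvF.Ymat_mul (hd : ∀ k, 1 ≤ d k) {H x y : Matrix (JI d) (JI d) F} (h : InvF H)
    (hx : x ∈ comJ d F) (hy : y ∈ comJ d F) (i : ℕ) :
    Ymat hd (xᵀ * H * y) i = (piM hd x i)ᵀ * Ymat hd H i * piM hd y i := by
  have e : (xᵀ * H * y * cJ d F).submatrix (revJ d) id = xᵀ.submatrix (revJ d) (revJ d) *
      (H * cJ d F).submatrix (revJ d) id * (cJ d F * y * cJ d F) := by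
    rw [submatrix_mul_equiv]
    change _ = (xᵀ * (H * cJ d F) * (cJ d F * y * cJ d F)).submatrix (revJ d) id
    simp only [Matrix.mul_assoc]
    rw [← Matrix.mul_assoc (cJ d F) (cJ d F), cJ_mul_self hd, Matrix.one_mul]
  rw [← piM_eq_Ymat, e, piM_mul hd (mul_mem (transpose_rev_mem hx) h.mem) (cJ_conj_mem hy),
    piM_mul hd (transpose_rev_mem hx) h.mem, piM_transpose_rev hd hx, piM_eq_Ymat]
  congr 1
  ext a b
  rw [piM_apply, mul_cJ_top, cJ_mul_top, piM_apply]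

theorem shJ_top (hd : ∀ k, 1 ≤ d k) (k : κ) :
    shJ d F (d k - 1) *ᵥ Pi.single (topJ hd k) 1 = Pi.single (botJ hd k) 1 := by
  rw [← shJ_genJ (botJ hd k), topJ, ← genJ_eq_single]
  rfl

theorem unip_inv_pow_mulVec {v : JI d → F} (hv : nilJ d F *ᵥ v = 0) (e : ℕ) :
    (-(1 + nilJ d F)⁻¹) ^ e *ᵥ v = (-1 : F) ^ e • v := by
  have h1 : (1 + nilJ d F)⁻¹ *ᵥ v = v := by
    conv_lhs => rw [show v = (1 + nilJ d F) *ᵥ v by rw [add_mulVec, hv]; simp, mulVec_mulVec,
      unip_inv_mul, one_mulVec]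
  induction e with
  | zero => simp
  | succ e ih =>
    rw [pow_succ', ← mulVec_mulVec, ih, mulVec_smul, neg_mulVec, h1, pow_succ]; simp

theorem InvF.dot_pow {H : Matrix (JI d) (JI d) F} (h : InvF H) (e : ℕ) (v w : JI d → F) :
    v ⬝ᵥ H *ᵥ (shJ d F e *ᵥ w) = (MJ d F ^ e *ᵥ v) ⬝ᵥ H *ᵥ w := by
  have : H * nilJ d F ^ e = (MJ d F ^ e)ᵀ * H := by
    induction e with
    | zero => simp
    | succ e ih =>
      rw [pow_succ, ← Matrix.mul_assoc, ih, Matrix.mul_assoc, ← h.eq2, pow_succ', transpose_mul,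
        Matrix.mul_assoc]
  rw [mulVec_mulVec, ← nilJ_pow, this, ← mulVec_mulVec, dotProduct_mulVec, vecMul_transpose]

theorem nilJ_bot (hd : ∀ k, 1 ≤ d k) (k : κ) : nilJ d F *ᵥ Pi.single (botJ hd k) 1 = 0 := by
  rw [← shJ_top, mulVec_mulVec, shJ_add, show 1 + (d k - 1) = d k by have := hd k; omega, topJ,
    ← genJ_eq_single, shJ_genJ_eq_zero]

theorem InvF.Ymat_transpose (hd : ∀ k, 1 ≤ d k) {H : Matrix (JI d) (JI d) F} (h : InvF H)
    (i : ℕ) : Ymat hd Hᵀ i = (-1 : F) ^ (i - 1) • (Ymat hd H i)ᵀ := by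
  ext ⟨a, ha⟩ ⟨b, hb⟩
  have := h.dot_pow (i - 1) (Pi.single (topJ hd b) 1) (Pi.single (topJ hd a) 1)
  rw [MJ_pow, ← mulVec_mulVec] at this
  conv_lhs at this => rw [← ha, shJ_top]
  conv_rhs at this => rw [← hb, shJ_top, unip_inv_pow_mulVec (nilJ_bot hd b), hb]
  simpa [Ymat] using this

theorem InvF.Ymat_diag (hd : ∀ k, 1 ≤ d k) {H : Matrix (JI d) (JI d) F} (h : InvF H)
    (ha : AltM H) {i : ℕ} (hi : Odd i) (a : Fb d i) : Ymat hd H i a a = 0 := by
  obtain ⟨j, rfl⟩ := hi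
  obtain ⟨k, hk⟩ := a
  set v : JI d → F := Pi.single (topJ hd k) 1 with hv
  have h0 : shJ d F (2 * j + 1) *ᵥ v = 0 := by
    rw [← hk, hv, topJ, ← genJ_eq_single, shJ_genJ_eq_zero]
  obtain ⟨t, ht1, ht2⟩ : ∃ t, Commute (nilJ d F) t ∧
      (-(1 + nilJ d F)⁻¹) ^ j = (-1 : F) ^ j • 1 + t * nilJ d F := by
    clear hk hv h0
    induction j with
    | zero => exact ⟨0, by simp⟩
    | succ j ih =>
      obtain ⟨t, h1, h2⟩ := ih
      refine ⟨(-1 : F) ^ j • (1 + nilJ d F)⁻¹ - (1 + nilJ d F)⁻¹ * t,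
        (commute_unip_inv.smul_right _).sub_right (commute_unip_inv.mul_right h1), ?_⟩
      have := unip_inv_mul (d := d) (F := F)
      rw [Matrix.mul_add, Matrix.mul_one, ← eq_sub_iff_add_eq'] at this
      rw [pow_succ', h2, Matrix.sub_mul, Matrix.smul_mul, this, pow_succ]
      simp only [Matrix.mul_add, Matrix.neg_mul, Matrix.mul_smul, Matrix.mul_one, smul_sub,
        Matrix.mul_assoc, mul_neg, mul_one, neg_smul, smul_neg]
      abel
  have h2 := h.dot_pow j v (shJ d F j *ᵥ v)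
  have h3 := h.transpose.dot_pow (j + 1) (shJ d F j *ᵥ v) (t *ᵥ v)
  have e : ∀ x y : JI d → F, x ⬝ᵥ Hᵀ *ᵥ y = y ⬝ᵥ H *ᵥ x := fun x y => by
    rw [dotProduct_mulVec, vecMul_transpose, dotProduct_comm]
  have e1 : MJ d F ^ (j + 1) *ᵥ shJ d F j *ᵥ v = 0 := by
    rw [MJ_pow, mulVec_mulVec, Matrix.mul_assoc, shJ_add, show j + 1 + j = 2 * j + 1 by ring,
      ← mulVec_mulVec, h0, mulVec_zero]
  have e2 : MJ d F ^ j *ᵥ v = (-1 : F) ^ j • shJ d F j *ᵥ v + shJ d F (j + 1) *ᵥ t *ᵥ v := by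
    rw [MJ_pow, ht2, Matrix.add_mul, add_mulVec, Matrix.smul_mul, Matrix.one_mul, smul_mulVec,
      Matrix.mul_assoc, shJ_add, add_comm 1 j, ← nilJ_pow (j + 1), ← (ht1.pow_left _).eq,
      mulVec_mulVec]
  have e3 : shJ d F j *ᵥ shJ d F j *ᵥ v = Pi.single (botJ hd k) 1 := by
    rw [mulVec_mulVec, shJ_add, show j + j = d k - 1 by omega, hv, shJ_top]
  rw [e1, zero_dotProduct, e] at h3
  rw [e2, e3, add_dotProduct, smul_dotProduct, ha, h3, hv] at h2
  have h4 : H (topJ hd k) (botJ hd k) = 0 := by simpa using h2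
  have h5 := congrFun (congrFun ha.transpose_eq (topJ hd k)) (botJ hd k)
  simpa [Ymat, h4] using h5

theorem InvF.altM_Ymat (hd : ∀ k, 1 ≤ d k) {H : Matrix (JI d) (JI d) F} (h : InvF H)
    (ha : AltM H) {i : ℕ} (hi : Odd i) : AltM (Ymat hd H i) := by
  refine altM_of_skew ?_ (h.Ymat_diag hd ha hi)
  have := h.Ymat_transpose hd i
  obtain ⟨j, rfl⟩ := hi
  rw [ha.transpose_eq, Nat.add_sub_cancel, pow_mul, neg_one_sq, one_pow, one_smul] at this
  rw [← this]; rfl

theorem InvF.symm_Ymat (hd : ∀ k, 1 ≤ d k) {H : Matrix (JI d) (JI d) F} (h : InvF H)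
    (ha : AltM H) {i : ℕ} (hi : Even i) : (Ymat hd H i)ᵀ = Ymat hd H i := by
  have := h.Ymat_transpose hd i
  rcases Nat.eq_zero_or_pos i with rfl | h0
  · ext ⟨a, ha⟩; have := hd a; omega
  rw [ha.transpose_eq, (Nat.Even.sub_odd h0 hi odd_one).neg_one_pow, neg_one_smul] at this
  exact (neg_injective this).symm

theorem InvF.even_mulJ (hd : ∀ k, 1 ≤ d k) {H : Matrix (JI d) (JI d) F} (h : InvF H)
    (hu : IsUnit H) (ha : AltM H) {i : ℕ} (hi : Odd i) : Even (mulJ d i) := by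
  rw [← card_Fb]
  exact even_card_of_altM ((h.isUnit_iff hd).1 hu i) (h.altM_Ymat hd ha hi)

theorem map_mem_comJ (σ : F →+* F) {x : Matrix (JI d) (JI d) F} (hx : x ∈ comJ d F) :
    x.map σ ∈ comJ d F := by
  have : (nilJ d F).map σ = nilJ d F := by ext a b; simp [shJ_apply, apply_ite σ]
  rw [mem_comJ] at hx ⊢
  rw [← this, ← Matrix.map_mul, ← Matrix.map_mul, hx]

theorem InvF.adjM_mem {H x : Matrix (JI d) (JI d) F} (h : InvF H) (hu : IsUnit H)
    (hx : x ∈ comJ d F) : adjM H x ∈ comJ d F := by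
  have := h.mul hx (one_mem _)
  have e : (1 + nilJ d F)ᵀ * H = H * (1 + nilJ d F)⁻¹ := by
    rw [transpose_add, Matrix.add_mul, h.eq1, MJ, Matrix.mul_sub]; simp
  rw [Matrix.mul_one, InvF, ← mul_adjM hu, ← Matrix.mul_assoc, e, Matrix.mul_assoc,
    Matrix.mul_assoc, hu.mul_right_inj] at this
  rw [comJ_iff_unip]
  conv_rhs => rw [← this, ← Matrix.mul_assoc, unip_mul_inv, Matrix.one_mul]

/-- the involution data attached to an invariant sesquilinear form -/
noncomputable def invDataJ (hd : ∀ k, 1 ≤ d k) {I : Finset ℕ} (hI : ∀ k, d k ∈ I) (σ : F →+* F)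
    (hσ : ∀ x, σ (σ x) = x) {H : Matrix (JI d) (JI d) F} (h : InvF H) (hu : IsUnit H) {ε : F}
    (hε : (H.map σ)ᵀ = ε • H) {t : F} (ht : t + σ t = 1) : InvData (comJ d F) (LevJ d I F) where
  s :=
    { toFun := fun x => ⟨adjM H (x.1.map σ), h.adjM_mem hu (map_mem_comJ σ x.2)⟩
      map_zero' := Subtype.ext (by simp)
      map_add' := fun x y => Subtype.ext (by simp [Matrix.map_add]) }
  sL :=
    { toFun := fun X i => adjM (Ymat hd H i) ((X i).map σ)
      map_zero' := funext fun i => by simp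
      map_add' := fun X Y => funext fun i => by simp [Matrix.map_add] }
  π := piJ hd I
  t := algebraMap F _ t
  hmul x y := Subtype.ext (by simp [Matrix.map_mul, adjM_mul hu])
  hone := Subtype.ext (by simp [adjM_one hu])
  hss x := Subtype.ext (by
    change adjM H ((adjM H (x.1.map σ)).map σ) = x.1
    rw [adjM_eq_iff hu]
    have h1 := congrArg (fun M => (M.map σ)ᵀ) (mul_adjM hu (x.1.map σ))
    simp only [Matrix.map_mul, transpose_mul, hε, transpose_map, transpose_transpose,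
      Matrix.map_map, Function.comp_def, hσ, Matrix.map_id', Matrix.mul_smul,
      Matrix.smul_mul] at h1
    by_cases h0 : ε = 0
    · have : H = 0 := by
        ext a b
        simpa [h0] using congrFun (congrFun hε b) a
      simp [this]
    · exact smul_right_injective _ h0 h1)
  surj := piJ_surjective hd hI
  nil := isNilpotent_of_piJ hd hI
  comm x := funext fun i => by
    change piM hd (adjM H (x.1.map σ)) i = adjM (Ymat hd H i) ((piM hd x.1 i).map σ)
    rw [eq_comm, adjM_eq_iff ((h.isUnit_iff hd).1 hu i)]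
    have h1 := h.Ymat_mul hd (map_mem_comJ σ x.2) (one_mem _) i
    have h2 := h.Ymat_mul hd (one_mem _) (h.adjM_mem hu (map_mem_comJ σ x.2)) i
    rw [transpose_one, Matrix.one_mul, mul_adjM hu, piM_one, transpose_one, Matrix.one_mul] at h2
    rw [Matrix.mul_one, piM_one, Matrix.mul_one] at h1
    rw [← h2, h1]; rfl
  htc x := Algebra.commutes t x
  ht := Subtype.ext (by
    change algebraMap F (Matrix (JI d) (JI d) F) t +
      adjM H ((algebraMap F (Matrix (JI d) (JI d) F) t).map σ) = 1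
    rw [Algebra.algebraMap_eq_smul_one]
    have : (t • (1 : Matrix (JI d) (JI d) F)).map σ = σ t • 1 := by
      ext a b; by_cases h : a = b <;> simp [h]
    rw [this, adjM_smul, adjM_one hu, ← add_smul, ht, one_smul])

end CfsgH1
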