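import Cfsg.Agent.H1.Sp4
import Cfsg.Agent.H1.GU1
import Cfsg.Agent.H8.Forms

set_option autoImplicit false
set_option maxHeartbeats 400000
set_option linter.unusedSectionVars false

namespace CfsgH1

open Matrix Module CfsgH7

theorem card_centralizer_of_isConj {G : Type*} [Group G] {a b : G} (h : IsConj a b) :
    Nat.card (Subgroup.centralizer {a}) = Nat.card (Subgroup.centralizer {b}) := by
  obtain ⟨c, rfl⟩ := isConj_iff.1 h
  refine Nat.card_congr (Equiv.subtypeEquiv (MulAut.conj c).toEquiv fun g => ?_)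
  simp only [Subgroup.mem_centralizer_singleton_iff]
  change _ ↔ MulAut.conj c g * MulAut.conj c a = MulAut.conj c a * MulAut.conj c g
  rw [← map_mul, ← map_mul, (MulAut.conj c).apply_eq_iff_eq]

/-- a quadratic extension with its conjugation and a retraction -/
structure QExt (F K : Type*) [Field F] [Field K] [Algebra F K] where
  σ : K ≃+* K
  ord : orderOf σ = 2
  fix : ∀ x, σ x = x ↔ ∃ y, algebraMap F K y = x
  π : K →ₗ[F] F
  hπ : ∀ y, π (algebraMap F K y) = y
  rank : finrank F K = 2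

theorem exists_qext {K F : Type*} [Field K] [Fintype K] [Field F] [Fintype F] {q : ℕ}
    (hK : Fintype.card K = q ^ 2) (hF : Fintype.card F = q) :
    ∃ (_ : Algebra F K) (E : QExt F K), ∀ x, E.σ x = x ^ q := by
  obtain ⟨σ, h1, h2⟩ := exists_qfrob hK
  obtain ⟨ε, hε⟩ := exists_emb_fixF σ F (by rw [hF, card_fixF_eq σ (by rw [h2, hK])])
  letI := ε.toAlgebra
  obtain ⟨π, hπ⟩ := (Algebra.linearMap F K).exists_leftInverse_of_injective
    (LinearMap.ker_eq_bot.2 ε.injective)
  refine ⟨_, ⟨σ, h2, hε, π, fun y => LinearMap.congr_fun hπ y, ?_⟩, h1⟩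
  have := Module.card_eq_pow_finrank (K := F) (V := K)
  rw [hK, hF] at this
  exact (Nat.pow_right_injective (by classical exact two_le_of_card_sq hK) this).symm

namespace QExt
variable {F K : Type*} [Field F] [Field K] [Algebra F K] (E : QExt F K)
  {ι : Type*} [Fintype ι] [DecidableEq ι]

theorem σσ (x : K) : E.σ (E.σ x) = x := invol_of_orderOf E.ord x

theorem σ_alg (y : F) : E.σ (algebraMap F K y) = algebraMap F K y := (E.fix _).2 ⟨y, rfl⟩

theorem alg_π {x : K} (h : E.σ x = x) : algebraMap F K (E.π x) = x := by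
  obtain ⟨y, rfl⟩ := (E.fix x).1 h
  rw [E.hπ]

theorem σ_smul (c : F) (x : K) : E.σ (c • x) = c • E.σ x := by
  rw [Algebra.smul_def, Algebra.smul_def, map_mul, σ_alg]

/-- the trace -/
def tr : K →ₗ[F] F where
  toFun x := E.π (x + E.σ x)
  map_add' x y := by rw [← map_add, map_add E.σ]; congr 1; ring
  map_smul' c x := by rw [σ_smul, ← smul_add, map_smul]; rfl

theorem alg_tr (x : K) : algebraMap F K (E.tr x) = x + E.σ x :=
  E.alg_π (by rw [map_add, σσ, add_comm])

theorem eq_zero_of_tr {a : K} (h : ∀ c, E.tr (a * c) = 0) : a = 0 := by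
  by_contra ha
  obtain ⟨x, hx⟩ := exists_trace_two E.ord (map_one E.σ)
  have := E.alg_tr (a * (a⁻¹ * x))
  rw [h, mul_inv_cancel_left₀ ha, hx] at this
  simp at this

/-- the standard hermitian form as an `F`-bilinear map -/
def sesq (ι : Type*) [Fintype ι] : (ι → K) →ₗ[F] (ι → K) →ₗ[F] K :=
  LinearMap.mk₂ F (fun u v => u ⬝ᵥ (E.σ ∘ v)) (fun _ _ _ => add_dotProduct _ _ _)
    (fun _ _ _ => smul_dotProduct _ _ _)
    (fun u v w => by rw [← dotProduct_add]; congr 1; ext i; simp)
    (fun c u v => by rw [← dotProduct_smul]; congr 1; ext i; simp [σ_smul])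

theorem sesq_apply (u v : ι → K) : E.sesq ι u v = u ⬝ᵥ (E.σ ∘ v) := rfl

theorem sesq_conj (u v : ι → K) : E.σ (E.sesq ι u v) = E.sesq ι v u := herm_conj E.ord u v

theorem sesq_smul_left (c : K) (u v : ι → K) : E.sesq ι (c • u) v = c * E.sesq ι u v :=
  smul_dotProduct _ _ _

theorem sesq_single (u : ι → K) (i : ι) (c : K) :
    E.sesq ι u (Pi.single i c) = u i * E.σ c := by
  rw [sesq_apply, ← dotProduct_single]
  congr 1
  ext j
  by_cases h : j = i
  · subst h; simp
  · simp [h]

/-- trace form -/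
def trB (θ : K) (ι : Type*) [Fintype ι] : LinearMap.BilinForm F (ι → K) :=
  (E.sesq ι).compr₂ (E.tr ∘ₗ LinearMap.mulLeft F θ)

theorem trB_apply (θ : K) (u v : ι → K) : E.trB θ ι u v = E.tr (θ * E.sesq ι u v) := rfl

theorem trB_alt {θ : K} (h : E.σ θ = -θ) : (E.trB θ ι).IsAlt := fun v => by
  apply (algebraMap F K).injective
  rw [trB_apply, alg_tr, map_mul, h, sesq_conj]; simp

theorem trB_nondeg {θ : K} (h : θ ≠ 0) (u : ι → K) (hu : ∀ v, E.trB θ ι u v = 0) : u = 0 := by
  ext i
  have := E.eq_zero_of_tr (a := θ * u i) fun c => by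
    rw [mul_assoc, ← E.σσ c, ← sesq_single, ← trB_apply, hu]
  simpa [h] using this

theorem exists_skew : ∃ θ : K, θ ≠ 0 ∧ E.σ θ = -θ := by
  obtain ⟨θ, h⟩ := exists_ne_of_orderOf E.ord
  exact ⟨θ - E.σ θ, h, by rw [map_sub, σσ, neg_sub]⟩

include E in
theorem finrank_fun : finrank F (ι → K) = 2 * Fintype.card ι := by
  haveI : Module.Finite F K := Module.finite_of_finrank_eq_succ E.rank
  rw [Module.finrank_pi_fintype, E.rank]; simp [mul_comm]

theorem sesq_eq_of_trB {θ : K} (h : θ ≠ 0) {g : (ι → K) →ₗ[K] (ι → K)}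
    (hg : ∀ u v, E.trB θ ι (g u) (g v) = E.trB θ ι u v) (u v : ι → K) :
    E.sesq ι (g u) (g v) = E.sesq ι u v := by
  have := E.eq_zero_of_tr (a := θ * (E.sesq ι (g u) (g v) - E.sesq ι u v)) fun c => by
    have := hg (c • u) v
    rw [map_smul, trB_apply, trB_apply, sesq_smul_left, sesq_smul_left, ← sub_eq_zero,
      ← map_sub] at this
    rw [← this]; congr 1; ring
  simpa [h, sub_eq_zero] using this

/-- the hermitian norm as a quadratic form over the subfield -/
def nQ (ι : Type*) [Fintype ι] : QuadraticForm F (ι → K) :=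
  LinearMap.BilinMap.toQuadraticMap ((E.sesq ι).compr₂ E.π)

theorem nQ_apply (v : ι → K) : E.nQ ι v = E.π (E.sesq ι v v) := rfl

theorem alg_nQ (v : ι → K) : algebraMap F K (E.nQ ι v) = E.sesq ι v v :=
  E.alg_π (E.sesq_conj v v)

theorem polar_nQ (u v : ι → K) : QuadraticMap.polar (E.nQ ι) u v = E.trB 1 ι u v := by
  rw [nQ, LinearMap.BilinMap.polar_toQuadraticMap, trB_apply, one_mul]
  change E.π _ + E.π _ = E.π _
  rw [← map_add, sesq_conj]

theorem nd_nQ : CfsgH8.ND (E.nQ ι) :=
  ⟨fun u hu => E.trB_nondeg one_ne_zero u fun v => by rw [← polar_nQ]; exact hu v,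
   fun u hu => E.trB_nondeg one_ne_zero u fun v => by
    rw [← polar_nQ, QuadraticMap.polar_comm]; exact hu v⟩

theorem exists_TS [Finite K] {k r : ℕ} (hr : r ≤ 1) (e : ι ≃ (Fin k ⊕ Fin k) ⊕ Fin r) :
    ∃ U : Submodule F (ι → K), CfsgH8.TS (E.nQ ι) U ∧ finrank F U = 2 * k ∧
      ∀ x ∈ CfsgH8.perp (E.nQ ι) U, E.nQ ι x = 0 → x ∈ U := by
  obtain ⟨a, ha⟩ := exists_norm_two E.ord (c := -1) (by simp)
  let φ : (Fin k → K) →ₗ[F] (ι → K) :=
    { toFun := fun v => Sum.elim (Sum.elim v (a • v)) 0 ∘ e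
      map_add' := fun u v => by
        ext i
        simp only [Function.comp_apply, Pi.add_apply]
        rcases e i with (j | j) | j <;> simp [mul_add]
      map_smul' := fun c v => by
        ext i
        simp only [Function.comp_apply, Pi.smul_apply]
        rcases e i with (j | j) | j <;> simp }
  have hs : ∀ x y : ι → K, E.sesq ι x y =
      ∑ j, x (e.symm (.inl (.inl j))) * E.σ (y (e.symm (.inl (.inl j)))) +
      ∑ j, x (e.symm (.inl (.inr j))) * E.σ (y (e.symm (.inl (.inr j)))) +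
      ∑ j, x (e.symm (.inr j)) * E.σ (y (e.symm (.inr j))) := fun x y => by
    rw [sesq_apply, dotProduct, ← e.symm.sum_comp]
    simp [Fintype.sum_sum_type]
  have h1 : ∀ v j, φ v (e.symm (.inl (.inl j))) = v j := fun v j => by simp [φ]
  have h2 : ∀ v j, φ v (e.symm (.inl (.inr j))) = a * v j := fun v j => by simp [φ]
  have h3 : ∀ v j, φ v (e.symm (.inr j)) = 0 := fun v j => by simp [φ]
  have hφ : ∀ v x, E.sesq ι (φ v) x = ∑ j, v j * (E.σ (x (e.symm (.inl (.inl j)))) +
      a * E.σ (x (e.symm (.inl (.inr j))))) := fun v x => by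
    simp only [hs, h1, h2, h3, zero_mul, Finset.sum_const_zero, add_zero, ← Finset.sum_add_distrib]
    exact Finset.sum_congr rfl fun j _ => by ring
  refine ⟨LinearMap.range φ, ?_, ?_, fun x hx hx0 => ?_⟩
  · rintro _ ⟨v, rfl⟩
    rw [nQ_apply, hφ, Finset.sum_eq_zero, map_zero]
    intro j _
    rw [h1, h2, map_mul, ← mul_assoc, ha]; simp
  · rw [LinearMap.finrank_range_of_inj (fun u v h => funext fun j => by rw [← h1 u, h, h1]),
      E.finrank_fun, Fintype.card_fin]
  · have h4 : ∀ j, x (e.symm (.inl (.inr j))) = a * x (e.symm (.inl (.inl j))) := fun j => by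
      have := E.eq_zero_of_tr (a := E.σ (x (e.symm (.inl (.inl j)))) +
        a * E.σ (x (e.symm (.inl (.inr j))))) fun c => by
        have := CfsgH8.mem_perp.1 hx _ ⟨Pi.single j c, rfl⟩
        rw [polar_nQ, trB_apply, one_mul, hφ, Finset.sum_eq_single j (fun b _ hb => by simp [hb])
          (by simp)] at this
        rw [← this, mul_comm]; simp
      have := congrArg E.σ this
      simp only [map_add, map_mul, σσ, map_zero] at this
      linear_combination (-a) * this + x (e.symm (.inl (.inr j))) * ha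
    have h5 : ∀ j, x (e.symm (.inr j)) = 0 := fun j => by
      have := E.alg_nQ x
      rw [hx0, map_zero, hs, ← Finset.sum_add_distrib, Finset.sum_eq_zero (fun j _ => by
        rw [h4, map_mul]; linear_combination (x (e.symm (.inl (.inl j))) *
          E.σ (x (e.symm (.inl (.inl j))))) * ha), zero_add,
        Finset.sum_eq_single j (fun b _ hb => absurd (Fin.ext (by omega)) hb) (by simp)] at this
      simpa using this.symm
    refine ⟨fun j => x (e.symm (.inl (.inl j))), funext fun i => ?_⟩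
    obtain ⟨i, rfl⟩ := e.symm.surjective i
    rcases i with (j | j) | j
    · rw [h1]
    · rw [h2, h4]
    · rw [h3, h5]

/-- restriction of scalars of the matrix action -/
def resM (F : Type*) {K : Type*} [Field F] [Field K] [Algebra F K] (ι : Type*) [Fintype ι]
    [DecidableEq ι] : Matrix ι ι K →* Module.End F (ι → K) where
  toFun g := (toLin' g).restrictScalars F
  map_one' := by ext; simp
  map_mul' a b := LinearMap.ext fun v => by simp

theorem resM_apply (g : Matrix ι ι K) (v : ι → K) : resM F ι g v = g *ᵥ v := rfl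

theorem resM_injective : Function.Injective (resM F (K := K) ι) := fun _ _ h =>
  toLin'.injective (LinearMap.ext fun v => LinearMap.congr_fun h v)

theorem exists_embed_OG {n q : ℕ} (hσ : ∀ x, E.σ x = x ^ q) :
    ∃ φ : Cfsg.GU n K q →* CfsgH8.OG (E.nQ (Fin n)), Function.Injective φ := by
  let ρ : Cfsg.GU n K q →* ((Fin n → K) ≃ₗ[F] (Fin n → K)) :=
    ((LinearMap.GeneralLinearGroup.generalLinearEquiv F (Fin n → K)).toMonoidHom.comp
      (Units.map (resM F (Fin n)))).comp (Cfsg.GU n K q).subtype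
  have hρ : ∀ g v, ρ g v = g.1.1 *ᵥ v := fun g v => rfl
  refine ⟨ρ.codRestrict _ fun g v => ?_, fun a b h => ?_⟩
  · rw [hρ, nQ_apply, nQ_apply, sesq_apply, sesq_apply,
      (preserves_herm_iff E.σ g.1.1).2 ((mem_GU_iff hσ _).1 g.2)]
  · have h1 : ρ a = ρ b := congrArg Subtype.val h
    refine Subtype.ext (Units.ext (toLin'.injective (LinearMap.ext fun v => ?_)))
    rw [toLin'_apply, toLin'_apply, ← hρ, ← hρ, h1]

theorem exists_lin_comb {ω : K} (hω : E.σ ω ≠ ω) (c : K) :
    ∃ a b : F, c = algebraMap F K a + algebraMap F K b * ω := by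
  have h0 : ω - E.σ ω ≠ 0 := sub_ne_zero.2 hω.symm
  have h1 : E.σ ω - ω ≠ 0 := sub_ne_zero.2 hω
  obtain ⟨b, hb⟩ := (E.fix ((c - E.σ c) / (ω - E.σ ω))).1 (by
    simp only [map_div₀, map_sub, σσ]
    field_simp
    ring)
  obtain ⟨a, ha⟩ := (E.fix (c - algebraMap F K b * ω)).1 (by
    rw [map_sub, map_mul, σ_alg, hb]
    field_simp
    ring)
  exact ⟨a, b, by rw [ha]; ring⟩

end QExt

end CfsgH1
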