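import Cfsg.Agent.H1.JForm
import Cfsg.Agent.H1.QExt
import Cfsg.Agent.H8.MaxTS
import Cfsg.Agent.H8.Disc

set_option autoImplicit false
set_option maxHeartbeats 400000
set_option linter.unusedSectionVars false

namespace CfsgH1

open Matrix Module CfsgH7

variable {κ : Type*} [Fintype κ] [DecidableEq κ] {d : κ → ℕ} {F : Type*} [Field F]
  {ι : Type*} [Fintype ι] [DecidableEq ι]

theorem symm_congr_GL [Finite F] (h2 : (2 : F) ≠ 0) {Y Y' : Matrix ι ι F} (hY : Yᵀ = Y)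
    (hY' : Y'ᵀ = Y') (hu : IsUnit Y) (hu' : IsUnit Y') (h : IsSquare Y.det ↔ IsSquare Y'.det) :
    ∃ P : GL ι F, P.1ᵀ * Y * P.1 = Y' := by
  have hp : ∀ {Y : Matrix ι ι F}, Yᵀ = Y → ∀ u v, QuadraticMap.polar
      (Matrix.toQuadraticForm' ((2 : F)⁻¹ • Y)) u v = u ⬝ᵥ Y *ᵥ v := fun {Y} hY u v => by
    rw [Matrix.toQuadraticForm', LinearMap.BilinMap.polar_toQuadraticMap]
    simp only [toLinearMap₂'_apply', smul_mulVec, dotProduct_smul]
    rw [dotProduct_mulVec v, ← mulVec_transpose, hY, dotProduct_comm _ u, ← two_smul F, smul_smul,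
      mul_inv_cancel₀ h2, one_smul]
  have hnd : ∀ {Y : Matrix ι ι F}, Yᵀ = Y → IsUnit Y →
      CfsgH8.ND (Matrix.toQuadraticForm' ((2 : F)⁻¹ • Y)) := fun {Y} hY hu =>
    ⟨fun u h => toBilin'_nondeg hu u fun v => by rw [Matrix.toBilin'_apply', ← hp hY]; exact h v,
     fun u h => toBilin'_nondeg hu u fun v => by
      rw [Matrix.toBilin'_apply', ← hp hY, QuadraticMap.polar_comm]; exact h v⟩
  have hd : ∀ {Y : Matrix ι ι F}, Yᵀ = Y → (IsSquare Y.det ↔
      CfsgH8.discC (Matrix.toQuadraticForm' ((2 : F)⁻¹ • Y)) = 1) := fun {Y} hY => by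
    rw [← CfsgH8.isSquare_gram_fun_iff]
    congr! 2
    ext i j; simp [hp hY]
  obtain ⟨e, he⟩ := CfsgH8.iso_of_discC h2 (hnd hY' hu') (hnd hY hu) rfl (by
    rw [hd hY, hd hY'] at h
    rcases Int.units_eq_one_or (CfsgH8.discC (Matrix.toQuadraticForm' ((2 : F)⁻¹ • Y))) with h1 | h1
    · rw [h1, h.1 h1]
    · rw [h1] at h ⊢
      exact (Int.units_eq_one_or _).resolve_left fun h3 => by simpa using h.2 h3)
  have h1 : (LinearMap.toMatrix' e.toLinearMap)ᵀ * Y * LinearMap.toMatrix' e.toLinearMap = Y' := by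
    rw [← form_eq_iff]
    intro u v
    rw [← dot_mul_mul, ← toLin'_apply (LinearMap.toMatrix' _), ← toLin'_apply (LinearMap.toMatrix' _),
      toLin'_toMatrix', ← hp hY, ← hp hY']
    exact CfsgH8.polar_map e.toLinearMap he u v
  exact ⟨(isUnit_of_mul_isUnit_right (h1 ▸ hu')).unit, h1⟩

theorem IsJType.exists_model_map [Finite F] (hd : ∀ k, 1 ≤ d k) {g : Matrix ι ι F}
    (h : IsJType g (Finset.univ.val.map d)) : ∃ (Q : Matrix ι (JI d) F) (Q' : Matrix (JI d) ι F),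
      Q * Q' = 1 ∧ Q' * Q = 1 ∧ g * Q = Q * (1 + nilJ d F) := by
  have e : JI d ≃ ι := Fintype.equivOfCardEq (by rw [card_JI, ← h.sum_eq]; rfl)
  obtain ⟨P, hP⟩ := ((isJType_nilJ hd).reindex e).isConj h
  refine ⟨P.1.submatrix id e, P⁻¹.1.submatrix e id, ?_, ?_, ?_⟩
  · rw [submatrix_mul_equiv, Units.mul_inv]; rfl
  · rw [show P⁻¹.1.submatrix e id * P.1.submatrix id e = (P⁻¹.1 * P.1).submatrix e e from rfl,
      Units.inv_mul, submatrix_one_equiv]
  · change (g * P.1).submatrix id e = _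
    rw [← hP.eq, ← submatrix_mul_equiv _ _ _ e]
    simp

theorem isJType_of_model (hd : ∀ k, 1 ≤ d k) {g : Matrix ι ι F} {Q : Matrix ι (JI d) F}
    {Q' : Matrix (JI d) ι F} (h1 : Q * Q' = 1) (h2 : Q' * Q = 1)
    (h3 : g * Q = Q * (1 + nilJ d F)) : IsJType g (Finset.univ.val.map d) := by
  refine ⟨(isJType_nilJ (F := F) hd).1, fun e => ?_⟩
  rw [← (isJType_nilJ (F := F) hd).2 e, add_sub_cancel_left]
  have h4 : (g - 1) * Q = Q * nilJ d F := by rw [Matrix.sub_mul, h3, Matrix.mul_add]; simp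
  have h5 : (g - 1) ^ e * Q = Q * nilJ d F ^ e := by
    induction e with
    | zero => simp
    | succ e ih => rw [pow_succ', Matrix.mul_assoc, ih, ← Matrix.mul_assoc, h4, pow_succ',
        Matrix.mul_assoc]
  apply le_antisymm
  · rw [show (g - 1) ^ e = Q * nilJ d F ^ e * Q' by
      rw [← h5, Matrix.mul_assoc, h1, Matrix.mul_one]]
    exact (rank_mul_le_left _ _).trans (rank_mul_le_right _ _)
  · rw [show nilJ d F ^ e = Q' * ((g - 1) ^ e * Q) by
      rw [h5, ← Matrix.mul_assoc, h2, Matrix.one_mul]]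
    exact (rank_mul_le_right _ _).trans (rank_mul_le_left _ _)

theorem unip_map (σ : F →+* F) : (1 + nilJ d F).map σ = 1 + nilJ d F := by
  ext a b; simp [shJ_apply, apply_ite σ, one_apply]

theorem invF_model (σ : F →+* F) {g J : Matrix ι ι F} {Q : Matrix ι (JI d) F}
    (h3 : g * Q = Q * (1 + nilJ d F)) (hg : (g.map σ)ᵀ * J * g = J) :
    InvF ((Q.map σ)ᵀ * J * Q) := by
  have h4 : (Q.map σ)ᵀ * (g.map σ)ᵀ = (1 + nilJ d F)ᵀ * (Q.map σ)ᵀ := by
    rw [← transpose_mul, ← Matrix.map_mul, h3, Matrix.map_mul, unip_map, transpose_mul]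
  rw [InvF, Matrix.mul_assoc, Matrix.mul_assoc, ← h3, ← Matrix.mul_assoc, ← Matrix.mul_assoc,
    ← Matrix.mul_assoc, ← h4]
  conv_rhs => rw [← hg]
  simp only [Matrix.mul_assoc]

theorem isUnit_model (σ : F →+* F) {J : Matrix ι ι F} (hJ : IsUnit J) {Q : Matrix ι κ F}
    {Q' : Matrix κ ι F} (h1 : Q * Q' = 1) (h2 : Q' * Q = 1) : IsUnit ((Q.map σ)ᵀ * J * Q) := by
  refine IsUnit.of_mul_eq_one (Q' * J⁻¹ * (Q'.map σ)ᵀ) ?_
  simp only [Matrix.mul_assoc]
  rw [← Matrix.mul_assoc Q, h1, Matrix.one_mul, ← Matrix.mul_assoc J,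
    mul_nonsing_inv _ ((isUnit_iff_isUnit_det _).1 hJ), Matrix.one_mul, ← transpose_mul,
    ← Matrix.map_mul, h2]
  simp

theorem card_cent_model (σ : F →+* F) {g J : Matrix ι ι F} {Q : Matrix ι (JI d) F}
    {Q' : Matrix (JI d) ι F} (h1 : Q * Q' = 1) (h2 : Q' * Q = 1)
    (h3 : g * Q = Q * (1 + nilJ d F)) :
    Nat.card {x : Matrix ι ι F // x * g = g * x ∧ (x.map σ)ᵀ * J * x = J} =
      Nat.card {x : comJ d F // (x.1.map σ)ᵀ * ((Q.map σ)ᵀ * J * Q) * x.1 = (Q.map σ)ᵀ * J * Q} := by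
  have e1 : ∀ X : Matrix ι ι F, Q * (Q' * X) = X := fun X => by
    rw [← Matrix.mul_assoc, h1, Matrix.one_mul]
  have e2 : ∀ X : Matrix ι (JI d) F, Q * (Q' * X) = X := fun X => by
    rw [← Matrix.mul_assoc, h1, Matrix.one_mul]
  have e3 : ∀ X : Matrix (JI d) ι F, Q' * (Q * X) = X := fun X => by
    rw [← Matrix.mul_assoc, h2, Matrix.one_mul]
  have h4 : Q' * g = (1 + nilJ d F) * Q' := by
    rw [← Matrix.mul_one (Q' * g), ← h1, ← Matrix.mul_assoc, Matrix.mul_assoc Q', h3,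
      Matrix.mul_assoc, Matrix.mul_assoc, e3]
  have e4 : (Q'.map σ)ᵀ * (Q.map σ)ᵀ = 1 := by rw [← transpose_mul, ← Matrix.map_mul, h1]; simp
  refine Nat.card_congr ⟨fun x => ⟨⟨Q' * x.1 * Q, comJ_iff_unip.2 ?_⟩, ?_⟩,
    fun x => ⟨Q * x.1.1 * Q', ?_, ?_⟩, fun x => Subtype.ext ?_, fun x => Subtype.ext (Subtype.ext ?_)⟩
  · rw [Matrix.mul_assoc, ← h3, ← Matrix.mul_assoc, Matrix.mul_assoc Q', x.2.1, ← Matrix.mul_assoc,
      h4]
    simp only [Matrix.mul_assoc]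
  · conv_rhs => rw [← x.2.2]
    simp only [Matrix.map_mul, transpose_mul, Matrix.mul_assoc, e2]
    rw [← Matrix.mul_assoc (Q'.map σ)ᵀ, e4, Matrix.one_mul]
  · rw [Matrix.mul_assoc, h4, ← Matrix.mul_assoc, Matrix.mul_assoc Q, comJ_iff_unip.1 x.1.2,
      ← Matrix.mul_assoc, ← h3]
    simp only [Matrix.mul_assoc]
  · have := congrArg (fun X => (Q'.map σ)ᵀ * X * Q') x.2
    simp only [Matrix.map_mul, transpose_mul, Matrix.mul_assoc, h1, Matrix.mul_one] at this ⊢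
    rw [this, ← Matrix.mul_assoc, e4, Matrix.one_mul]
  · simp only [Matrix.mul_assoc, h1, Matrix.mul_one, e1]
  · simp only [Matrix.mul_assoc, h2, Matrix.mul_one]
    rw [← Matrix.mul_assoc, h2, Matrix.one_mul]

theorem card_cent_invF [Finite F] (hd : ∀ k, 1 ≤ d k) {I : Finset ℕ} (hI : ∀ k, d k ∈ I)
    (σ : F →+* F) (hσ : ∀ x, σ (σ x) = x) {H : Matrix (JI d) (JI d) F} (h : InvF H) (hu : IsUnit H)
    {ε : F} (hε : (H.map σ)ᵀ = ε • H) {t : F} (ht : t + σ t = 1) :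
    Nat.card {x : comJ d F // (x.1.map σ)ᵀ * H * x.1 = H} =
      (∏ i ∈ I, Nat.card {X : Matrix (Fb d i) (Fb d i) F //
        (X.map σ)ᵀ * Ymat hd H i * X = Ymat hd H i}) *
      Nat.card {x : comJ d F // piJ hd I x = 0 ∧ adjM H (x.1.map σ) = -x.1} := by
  have := (invDataJ hd hI σ hσ h hu hε ht).card_unitary
  rw [← Finset.prod_coe_sort I, ← Nat.card_pi, ← Nat.card_congr Equiv.subtypePiEquivPi]
  refine (Nat.card_congr (Equiv.subtypeEquivRight fun x => ?_)).trans (this.trans (congrArg₂ _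
    (Nat.card_congr (Equiv.subtypeEquivRight fun X => ?_))
    (Nat.card_congr (Equiv.subtypeEquivRight fun x => and_congr Iff.rfl ?_))))
  · rw [Subtype.ext_iff]
    change _ ↔ adjM H (x.1.map σ) * x.1 = 1
    rw [← hu.mul_right_inj (b := adjM H _ * _), ← Matrix.mul_assoc, mul_adjM hu, Matrix.mul_one]
  · rw [funext_iff]
    refine forall_congr' fun i => ?_
    have hY := (h.isUnit_iff hd).1 hu i
    symm
    change _ ↔ adjM (Ymat hd H i) ((X i).map σ) * X i = 1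
    rw [← hY.mul_right_inj (b := adjM _ _ * _), ← Matrix.mul_assoc, mul_adjM hY, Matrix.mul_one]
  · rw [Subtype.ext_iff]; rfl

theorem card_unitary_form {K : Type*} [Field K] [Fintype K] {σ : K ≃+* K} (h2 : orderOf σ = 2)
    {q : ℕ} (hK : Fintype.card K = q ^ 2) {Y : Matrix ι ι K} (hu : IsUnit Y) {e : ℕ}
    (hY : ct σ Y = (-1 : K) ^ e • Y) :
    (Nat.card {X : Matrix ι ι K // ct σ X * Y * X = Y} : ℤ) = ordGU q (Fintype.card ι) := by
  obtain ⟨c, hc0, hc⟩ : ∃ c : K, c ≠ 0 ∧ σ c * (-1) ^ e = c := by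
    rcases neg_one_pow_eq_or K e with h | h
    · exact ⟨1, one_ne_zero, by simp [h]⟩
    · obtain ⟨θ, hθ⟩ := exists_ne_of_orderOf h2
      exact ⟨_, hθ, by simp [h, invol_of_orderOf h2]⟩
  obtain ⟨Q, hQ, -, h3, -⟩ := herm_exists h2 (H := c • Y)
    (by simpa using (isUnit_smul_one hc0).mul hu) (by rw [ct_smul, hY, smul_smul, hc])
  obtain ⟨Q, rfl⟩ := hQ
  rw [← card_UM h2 hK ι]
  congr 1
  have e1 : ct σ Q⁻¹.1 * ct σ Q.1 = 1 := by rw [← ct_mul, Units.mul_inv, ct_one]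
  refine Nat.card_congr (Equiv.subtypeEquiv (Q.mulLeft.trans Q⁻¹.mulRight) fun X => ?_)
  rw [← (smul_right_injective _ hc0).eq_iff, ← Matrix.smul_mul, ← Matrix.mul_smul, ← h3]
  simp only [Equiv.trans_apply, Units.mulLeft_apply, Units.mulRight_apply, ct_mul]
  constructor
  · intro h
    calc _ = ct σ Q⁻¹.1 * (ct σ X * (ct σ Q.1 * Q.1) * X) * Q⁻¹.1 := by
          simp only [Matrix.mul_assoc]
      _ = 1 := by rw [h, ← Matrix.mul_assoc, e1]; simp
  · intro h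
    have := congrArg (fun M => ct σ Q.1 * M * Q.1) h
    simp only [Matrix.mul_assoc, Units.inv_mul, Matrix.mul_one, Matrix.one_mul] at this ⊢
    rwa [← Matrix.mul_assoc, mul_eq_one_comm.1 e1, Matrix.one_mul] at this

section Odd
variable [Finite F]

theorem InvF.congr_of_sign (h2 : (2 : F) ≠ 0) (hd : ∀ k, 1 ≤ d k) {H H' : Matrix (JI d) (JI d) F}
    (h : InvF H) (hu : IsUnit H) (ha : AltM H) (h' : InvF H') (hu' : IsUnit H') (ha' : AltM H')
    (hs : ∀ k, Even (d k) → (IsSquare (Ymat hd H (d k)).det ↔ IsSquare (Ymat hd H' (d k)).det)) :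
    ∃ x ∈ comJ d F, xᵀ * H * x = H' := by
  classical
  have hI : ∀ k, d k ∈ Finset.univ.image d := fun k => Finset.mem_image_of_mem _ (Finset.mem_univ k)
  let D := invDataJ hd hI (RingHom.id F) (fun _ => rfl) h hu (ε := -1)
    (by rw [neg_one_smul]; exact ha.transpose_eq) (t := 2⁻¹) (by
      simp only [RingHom.id_apply]; field_simp; norm_num)
  have hY := (h.isUnit_iff hd).1 hu
  have hY' := (h'.isUnit_iff hd).1 hu'
  have hX : ∀ i : Finset.univ.image d, ∃ P : GL (Fb d i) F,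
      P.1ᵀ * Ymat hd H i * P.1 = Ymat hd H' i := by
    rintro ⟨i, hi⟩
    obtain ⟨k, -, rfl⟩ := Finset.mem_image.1 hi
    rcases Nat.even_or_odd (d k) with he | ho
    · exact symm_congr_GL h2 (h.symm_Ymat hd ha he) (h'.symm_Ymat hd ha' he) (hY _) (hY' _) (hs k he)
    · exact alt_congr_GL (hY _) (h.altM_Ymat hd ha ho) (hY' _) (h'.altM_Ymat hd ha' ho)
  choose X hX using hX
  obtain ⟨z, rfl⟩ : ∃ z, H' = H * z := ⟨H⁻¹ * H', by
    rw [← Matrix.mul_assoc, mul_nonsing_inv _ ((isUnit_iff_isUnit_det _).1 hu), Matrix.one_mul]⟩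
  have hz : z ∈ comJ d F := by
    have e1 := h'.eq1
    rw [← Matrix.mul_assoc, h.eq1, Matrix.mul_assoc, Matrix.mul_assoc, hu.mul_right_inj, MJ,
      Matrix.sub_mul, Matrix.mul_sub, Matrix.one_mul, Matrix.mul_one, sub_left_inj] at e1
    rw [comJ_iff_unip]
    calc _ = (1 + nilJ d F) * ((1 + nilJ d F)⁻¹ * z) * (1 + nilJ d F) := by
          rw [← Matrix.mul_assoc, unip_mul_inv, Matrix.one_mul]
      _ = _ := by rw [e1, Matrix.mul_assoc, Matrix.mul_assoc, unip_inv_mul, Matrix.mul_one]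
  obtain ⟨x, -, hx⟩ := D.exists_norm_of_levi (h := ⟨z, hz⟩) (Subtype.ext (by
      change adjM H z = z
      have := ha'.transpose_eq
      rw [transpose_mul, ha.transpose_eq, Matrix.mul_neg, neg_inj] at this
      rwa [adjM_eq_iff hu])) (X := fun i => (X i).1) (funext fun i => by
      change adjM (Ymat hd H i) (X i).1 * (X i).1 = piM hd z i
      have := h.Ymat_mul hd (one_mem _) hz i
      rw [piM_one, transpose_one, transpose_one, Matrix.one_mul, Matrix.one_mul] at this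
      rw [adjM_mul_eq_iff (hY _), hX, this])
    (isUnit_comJ_iff.2 (isUnit_of_mul_isUnit_right hu'))
  exact ⟨x.1, x.2, (adjM_mul_eq_iff hu).1 (congrArg Subtype.val hx)⟩

theorem InvF.sign_congr (hd : ∀ k, 1 ≤ d k) {H x : Matrix (JI d) (JI d) F} (h : InvF H)
    (hx : x ∈ comJ d F) (hu : IsUnit x) (i : ℕ) :
    IsSquare (Ymat hd (xᵀ * H * x) i).det ↔ IsSquare (Ymat hd H i).det := by
  rw [h.Ymat_mul hd hx hx, det_mul, det_mul, det_transpose, mul_right_comm, ← sq]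
  exact CfsgH8.isSquare_sq_mul
    ((isUnit_iff_isUnit_det _).1 ((isUnit_iff_piM hd hx).1 hu i)).ne_zero

theorem exists_invF_sign (h2 : (2 : F) ≠ 0) (hd : ∀ k, 1 ≤ d k)
    (hp : ∀ i, Odd i → Even (mulJ d i)) (ε : ℕ → Prop) :
    ∃ H : Matrix (JI d) (JI d) F, InvF H ∧ IsUnit H ∧ AltM H ∧
      ∀ k, Even (d k) → (IsSquare (Ymat hd H (d k)).det ↔ ε (d k)) := by
  classical
  have hI : ∀ k, d k ∈ Finset.univ.image d := fun k => Finset.mem_image_of_mem _ (Finset.mem_univ k)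
  obtain ⟨ν, hν0, hν⟩ := CfsgH8.exists_nonsq h2
  rw [CfsgH8.chi_eq_neg_one_iff] at hν
  have hX : ∀ i : Finset.univ.image d, ∃ Y : Matrix (Fb d i) (Fb d i) F, IsUnit Y ∧
      Yᵀ = -((-1 : F) ^ (i.1 - 1)) • Y ∧ (Even i.1 → (IsSquare Y.det ↔ ε i)) := by
    rintro ⟨i, hi⟩
    obtain ⟨k, -, rfl⟩ := Finset.mem_image.1 hi
    rcases Nat.even_or_odd (d k) with he | ho
    · simp only [(Nat.Even.sub_odd (hd k) he odd_one).neg_one_pow, neg_neg, one_smul]
      by_cases h : ε (d k)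
      · exact ⟨1, isUnit_one, by simp, by simp [h]⟩
      · have e : (diagonal (Function.update (1 : Fb d (d k) → F) ⟨k, rfl⟩ ν)).det = ν := by
          simp [Finset.prod_update_of_mem]
        exact ⟨_, (isUnit_iff_isUnit_det _).2 (e.symm ▸ hν0.isUnit), by simp, by simp [e, h, hν]⟩
    · obtain ⟨j, hj⟩ := hp _ ho
      let e : Fin j ⊕ Fin j ≃ Fb d (d k) := Fintype.equivOfCardEq (by simp [card_Fb, ← hj])
      refine ⟨reindexAlgEquiv F F e (J (Fin j) F), isUnit_J.map _, ?_,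
        fun he => absurd he (Nat.not_even_iff_odd.2 ho)⟩
      rw [(Nat.Odd.sub_odd ho odd_one).neg_one_pow, neg_one_smul]
      ext a b
      exact congrFun (congrFun (J_transpose (Fin j) F) _) _
  choose X hX1 hX2 hX3 using hX
  obtain ⟨Z, hZ⟩ := exists_glue hI fun i => (2⁻¹ : F) • X i
  have h0 := invF_secM (F := F) hd Z
  have hY : ∀ i : Finset.univ.image d, Ymat hd ((secM d Z * cJ d F).submatrix (revJ d) id -
      ((secM d Z * cJ d F).submatrix (revJ d) id)ᵀ) i = X i := fun i => by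
    have e1 : Ymat hd ((secM d Z * cJ d F).submatrix (revJ d) id) i = (2⁻¹ : F) • X i := by
      ext a b; rw [Ymat_secM, hZ]
    change Ymat hd ((secM d Z * cJ d F).submatrix (revJ d) id) i -
      Ymat hd ((secM d Z * cJ d F).submatrix (revJ d) id)ᵀ i = _
    rw [h0.Ymat_transpose, e1, transpose_smul, hX2, smul_smul, smul_smul, ← sub_smul]
    have : (-1 : F) ^ (i.1 - 1) * (-1) ^ (i.1 - 1) = 1 := by rw [← mul_pow]; simp
    rw [show 2⁻¹ - (-1 : F) ^ (i.1 - 1) * 2⁻¹ * -(-1) ^ (i.1 - 1) = 1 by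
      field_simp; linear_combination this, one_smul]
  refine ⟨_, h0.sub h0.transpose, ((h0.sub h0.transpose).isUnit_iff hd).2 fun i => ?_,
    altM_of_skew_two h2 (by simp), fun k hk => ?_⟩
  · by_cases hi : i ∈ Finset.univ.image d
    · rw [hY ⟨i, hi⟩]; exact hX1 _
    · haveI : IsEmpty (Fb d i) := ⟨fun k => hi (k.2 ▸ hI k.1)⟩
      exact isUnit_of_subsingleton _
  · rw [hY ⟨_, hI k⟩]; exact hX3 ⟨_, hI k⟩ hk

theorem exists_sp_model {m : ℕ} {H : Matrix (JI d) (JI d) F} (h : InvF H) (hu : IsUnit H)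
    (ha : AltM H) (hm : ∑ k, d k = 2 * m) : ∃ (g : symplecticGroup (Fin m) F)
      (Q : Matrix (Fin m ⊕ Fin m) (JI d) F) (Q' : Matrix (JI d) (Fin m ⊕ Fin m) F),
      Q * Q' = 1 ∧ Q' * Q = 1 ∧ g.1 * Q = Q * (1 + nilJ d F) ∧ Qᵀ * J (Fin m) F * Q = H := by
  obtain ⟨Q, Q', h1, h2, h3⟩ := alt_congr (isUnit_J (m := m)) (altM_J _) hu ha
    (by rw [card_JI, hm]; simp [two_mul])
  refine ⟨⟨Q * (1 + nilJ d F) * Q', SymplecticGroup.mem_iff'.2 ?_⟩, Q, Q', h1, h2, ?_, h3⟩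
  · calc _ = Q'ᵀ * ((1 + nilJ d F)ᵀ * (Qᵀ * J (Fin m) F * Q) * (1 + nilJ d F)) * Q' := by
          simp only [transpose_mul, Matrix.mul_assoc]
      _ = (Q * Q')ᵀ * J (Fin m) F * (Q * Q') := by
          rw [h3, h, ← h3]; simp only [transpose_mul, Matrix.mul_assoc]
      _ = _ := by simp [h1]
  · simp only [Matrix.mul_assoc, h2, Matrix.mul_one]

theorem sp_even_count {m : ℕ} (g : symplecticGroup (Fin m) F) {s : Multiset ℕ}
    (h : IsJType g.1 s) {i : ℕ} (hi : Odd i) : Even (s.count i) := by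
  obtain ⟨t, d, rfl⟩ := exists_fin_map_eq s
  have hd : ∀ k, 1 ≤ d k := fun k => h.1 _ (Multiset.mem_map_of_mem _ (Finset.mem_univ k))
  obtain ⟨Q, Q', h1, h2, h3⟩ := h.exists_model_map hd
  have := (invF_model (RingHom.id F) h3 (SymplecticGroup.mem_iff'.1 g.2)).even_mulJ hd
    (isUnit_model _ isUnit_J h1 h2) ((altM_J _).congr Q) hi
  rw [Multiset.count_map]
  simpa [mulJ, Finset.card, eq_comm] using this

theorem card_classes_jtype (h2 : (2 : F) ≠ 0) {m : ℕ} {s : Multiset ℕ} (hs : ∀ a ∈ s, 0 < a)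
    (hm : s.sum = 2 * m) (hp : ∀ i, Odd i → Even (s.count i)) :
    Nat.card {C : ConjClasses (symplecticGroup (Fin m) F) //
      ∃ g, ConjClasses.mk g = C ∧ IsJType g.1 s} = 2 ^ (s.toFinset.filter Even).card := by
  classical
  obtain ⟨t, d, rfl⟩ := exists_fin_map_eq s
  have hd : ∀ k, 1 ≤ d k := fun k => hs _ (Multiset.mem_map_of_mem _ (Finset.mem_univ k))
  have hp' : ∀ i, Odd i → Even (mulJ d i) := fun i hi => by
    have := hp i hi
    rw [Multiset.count_map] at this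
    simpa [mulJ, Finset.card, eq_comm] using this
  set S := (Finset.univ.val.map d).toFinset.filter Even
  have hS : ∀ i, i ∈ S ↔ (∃ k, d k = i) ∧ Even i := fun i => by simp [S]
  choose H hH1 hH2 hH3 hH4 using fun ε : S → Prop =>
    exists_invF_sign h2 hd hp' fun i => ∀ h : i ∈ S, ε ⟨i, h⟩
  choose g Q Q' e1 e2 e3 e4 using fun ε => exists_sp_model (hH1 ε) (hH2 ε) (hH3 ε) hm
  rw [card_classes_of_reps _ g (fun ε => isJType_of_model hd (e1 ε) (e2 ε) (e3 ε))]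
  · simp
  · intro ε ε' h
    obtain ⟨c, hc⟩ := isConj_iff.1 h
    have hc' : c.1 * (g ε).1 = (g ε').1 * c.1 := congrArg Subtype.val (mul_inv_eq_iff_eq_mul.1 hc)
    have h4 : Q' ε' * (g ε').1 = (1 + nilJ d F) * Q' ε' := by
      rw [← Matrix.mul_one (Q' ε' * _), ← e1 ε', ← Matrix.mul_assoc, Matrix.mul_assoc (Q' ε'), e3,
        ← Matrix.mul_assoc, e2, Matrix.one_mul]
    have hx : Q' ε' * c.1 * Q ε ∈ comJ d F := by
      rw [comJ_iff_unip, Matrix.mul_assoc, ← e3, ← Matrix.mul_assoc, Matrix.mul_assoc (Q' ε'), hc',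
        ← Matrix.mul_assoc, h4]
      simp only [Matrix.mul_assoc]
    have h5 : (Q' ε' * c.1 * Q ε)ᵀ * H ε' * (Q' ε' * c.1 * Q ε) = H ε := by
      rw [← e4, ← e4]
      calc _ = (Q ε)ᵀ * (c.1ᵀ * ((Q ε' * Q' ε')ᵀ * J (Fin m) F * (Q ε' * Q' ε')) * c.1) * Q ε := by
            simp only [transpose_mul, Matrix.mul_assoc]
        _ = _ := by rw [e1, transpose_one, Matrix.one_mul, Matrix.mul_one,
            SymplecticGroup.mem_iff'.1 c.2]
    funext ⟨i, hi⟩
    obtain ⟨⟨k, rfl⟩, he⟩ := (hS i).1 hi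
    have := (hH1 ε').sign_congr hd hx (isUnit_of_mul_isUnit_right (h5 ▸ hH2 ε)) (d k)
    rw [h5, hH4 _ k he, hH4 _ k he] at this
    exact propext ⟨fun h => this.1 (fun _ => h) hi, fun h => this.2 (fun _ => h) hi⟩
  · intro a ha
    obtain ⟨P, P', h1, h3, h4⟩ := ha.exists_model_map hd
    have i1 : InvF (Pᵀ * J (Fin m) F * P) :=
      invF_model (RingHom.id F) h4 (SymplecticGroup.mem_iff'.1 a.2)
    have i2 : IsUnit (Pᵀ * J (Fin m) F * P) := isUnit_model (RingHom.id F) isUnit_J h1 h3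
    let ε : S → Prop := fun i => IsSquare (Ymat hd (Pᵀ * J (Fin m) F * P) i).det
    obtain ⟨x, hx1, hx2⟩ := i1.congr_of_sign h2 hd i2 ((altM_J _).congr P) (hH1 ε) (hH2 ε) (hH3 ε)
      fun k hk => by
        rw [hH4 _ k hk]
        exact ⟨fun h _ => h, fun h => h ((hS _).2 ⟨⟨k, rfl⟩, hk⟩)⟩
    refine ⟨ε, isConj_iff.2 ⟨⟨P * x * Q' ε, SymplecticGroup.mem_iff'.2 ?_⟩,
      mul_inv_eq_iff_eq_mul.2 (Subtype.ext ?_)⟩⟩
    · calc _ = (Q' ε)ᵀ * (xᵀ * (Pᵀ * J (Fin m) F * P) * x) * Q' ε := by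
            simp only [transpose_mul, Matrix.mul_assoc]
        _ = (Q ε * Q' ε)ᵀ * J (Fin m) F * (Q ε * Q' ε) := by
            rw [hx2, ← e4]; simp only [transpose_mul, Matrix.mul_assoc]
        _ = _ := by simp [e1]
    · change P * x * Q' ε * (g ε).1 = a.1 * (P * x * Q' ε)
      have h5 : Q' ε * (g ε).1 = (1 + nilJ d F) * Q' ε := by
        rw [← Matrix.mul_one (Q' ε * _), ← e1 ε, ← Matrix.mul_assoc, Matrix.mul_assoc (Q' ε), e3,
          ← Matrix.mul_assoc, e2, Matrix.one_mul]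
      rw [Matrix.mul_assoc, h5, ← Matrix.mul_assoc, Matrix.mul_assoc P, comJ_iff_unip.1 hx1,
        ← Matrix.mul_assoc, ← h4]
      simp only [Matrix.mul_assoc]

end Odd

end CfsgH1
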