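import Cfsg.Agent.H1.Dg
import Cfsg.Agent.S2588

set_option autoImplicit false
set_option maxHeartbeats 400000
set_option linter.unusedSectionVars false

namespace CfsgH1

open Matrix Module CfsgH7 Polynomial

theorem card_fun_sum_eq (Y : Type*) [Fintype Y] (N : ℕ) :
    Nat.card {c : Y → ℕ // ∑ y, c y = N} = (Fintype.card Y + N - 1).choose N := by
  classical
  rw [← Nat.card_congr (Sym.equivNatSumOfFintype Y N), Sym.natCard_sym_eq_choose,
    Nat.card_eq_fintype_card]

theorem card_fun_sum_le (Y : Type*) [Fintype Y] (N : ℕ) :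
    Nat.card {c : Y → ℕ // ∑ y, c y ≤ N} = (N + Fintype.card Y).choose (Fintype.card Y) := by
  have := card_fun_sum_eq (Option Y) N
  rw [Fintype.card_option, show Fintype.card Y + 1 + N - 1 = N + Fintype.card Y by omega,
    Nat.choose_symm_add] at this
  rw [← this]
  refine Nat.card_congr ⟨fun c => ⟨fun o => o.elim (N - ∑ y, c.1 y) c.1, ?_⟩,
    fun c => ⟨fun y => c.1 (some y), ?_⟩, fun c => rfl, fun c => Subtype.ext (funext fun o => ?_)⟩
  · have := c.2
    simp only [Fintype.sum_option, Option.elim]; omega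
  · have := c.2
    rw [Fintype.sum_option] at this; simp only; omega
  · have := c.2
    rw [Fintype.sum_option] at this
    cases o
    · simp only [Option.elim]; omega
    · rfl

theorem sum_comp_mk {G : Type*} [Group G] [Fintype G] (U : Subgroup G) [Fintype (G ⧸ U)]
    (c : G ⧸ U → ℕ) : ∑ g : G, c (QuotientGroup.mk g) = Nat.card U * ∑ y, c y := by
  classical
  rw [← Fintype.sum_fiberwise (fun g : G => (QuotientGroup.mk g : G ⧸ U)), Finset.mul_sum]
  refine Finset.sum_congr rfl fun y _ => ?_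
  rw [Finset.sum_congr rfl (g := fun _ => c y) (fun g _ => by rw [g.2])]
  have := QuotientGroup.card_preimage_mk U {y}
  rw [Nat.card_unique (α := ({y} : Set (G ⧸ U))), mul_one] at this
  rw [Finset.sum_const, Finset.card_univ, ← Nat.card_eq_fintype_card, smul_eq_mul, ← this]
  rfl

theorem sum_field_units {K : Type*} [Field K] [Fintype K] [DecidableEq K] (f : K → ℕ) :
    ∑ k, f k = f 0 + ∑ u : Kˣ, f u := by
  rw [Fintype.sum_eq_add_sum_subtype_ne f 0]
  congr 1
  exact (Fintype.sum_equiv unitsEquivNeZero _ _ fun _ => rfl).symm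

theorem card_inv_fun {K : Type*} [Field K] [Fintype K] (U : Subgroup Kˣ) (n : ℕ) :
    Nat.card {f : K → ℕ // ∑ k, f k = n ∧ ∀ u ∈ U, ∀ k, f (u * k) = f k} =
      (n / Nat.card U + (Fintype.card K - 1) / Nat.card U).choose
        ((Fintype.card K - 1) / Nat.card U) := by
  classical
  have hU : 0 < Nat.card U := Nat.card_pos
  have ht : Fintype.card (Kˣ ⧸ U) = (Fintype.card K - 1) / Nat.card U := by
    rw [← Fintype.card_units, ← Nat.card_eq_fintype_card (α := Kˣ),
      Subgroup.card_eq_card_quotient_mul_card_subgroup U, Nat.mul_div_cancel _ hU,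
      Nat.card_eq_fintype_card]
  rw [← ht, ← card_fun_sum_le]
  have hout : ∀ f : K → ℕ, (∀ u ∈ U, ∀ k, f (u * k) = f k) → ∀ g : Kˣ,
      f (QuotientGroup.mk g : Kˣ ⧸ U).out = f g := fun f hf g => by
    obtain ⟨u, hu⟩ := QuotientGroup.mk_out_eq_mul U g
    rw [hu, mul_comm, Units.val_mul, hf _ u.2]
  have hsum : ∀ f : K → ℕ, (∀ u ∈ U, ∀ k, f (u * k) = f k) →
      ∑ k, f k = f 0 + Nat.card U * ∑ y : Kˣ ⧸ U, f y.out := fun f hf => by
    rw [sum_field_units, ← sum_comp_mk U fun y => f y.out]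
    simp only [hout f hf]
  refine Nat.card_congr ⟨fun f => ⟨fun y => f.1 y.out, ?_⟩,
    fun c => ⟨fun k => if h : k = 0 then n - Nat.card U * ∑ y, c.1 y else
      c.1 (QuotientGroup.mk (Units.mk0 k h)), ?_, fun u hu k => ?_⟩,
    fun f => Subtype.ext (funext fun k => ?_), fun c => Subtype.ext (funext fun y => ?_)⟩
  · have := hsum _ f.2.2
    rw [f.2.1] at this
    rw [Nat.le_div_iff_mul_le hU, mul_comm]; simp only; omega
  · have := (Nat.le_div_iff_mul_le hU).1 c.2
    rw [sum_field_units]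
    simp only [dite_true, Units.ne_zero, dite_false, Units.mk0_val]
    rw [sum_comp_mk, mul_comm]; omega
  · by_cases h : k = 0
    · simp [h]
    · simp only
      rw [dif_neg h, dif_neg (mul_ne_zero u.ne_zero h)]
      refine congrArg c.1 ?_
      rw [eq_comm, QuotientGroup.eq]
      convert hu using 1
      ext; simp
  · by_cases h : k = 0
    · have := hsum _ f.2.2
      rw [f.2.1] at this
      simp only [h, dite_true]; omega
    · simp only [h, dite_false]
      rw [hout _ f.2.2]; rfl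
  · simp

variable {F E : Type*} [Field F] [Field E] {ι : Type*} [Fintype ι] [DecidableEq ι]

section Chi
variable {r : ℕ} [NeZero r] {ζ : E}

/-- `k ↦ ζ ^ k` on `ZMod r` -/
def chi (ζ : E) (k : ZMod r) : E := ζ ^ k.val

theorem chi_natCast (hζ : IsPrimitiveRoot ζ r) (a : ℕ) : chi ζ (a : ZMod r) = ζ ^ a :=
  AddChar.zmodChar_apply' hζ.pow_eq_one a

theorem chi_inj (hζ : IsPrimitiveRoot ζ r) : Function.Injective (chi ζ : ZMod r → E) :=
  fun a b h => ZMod.val_injective r (hζ.pow_inj (ZMod.val_lt a) (ZMod.val_lt b) h)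

theorem chi_zero : chi ζ (0 : ZMod r) = 1 := by simp [chi]

theorem chi_add (hζ : IsPrimitiveRoot ζ r) (a b : ZMod r) : chi ζ (a + b) = chi ζ a * chi ζ b :=
  (AddChar.zmodChar r hζ.pow_eq_one).map_add_eq_mul a b

theorem chi_neg (hζ : IsPrimitiveRoot ζ r) (a : ZMod r) : chi ζ (-a) = (chi ζ a)⁻¹ :=
  (AddChar.zmodChar r hζ.pow_eq_one).map_neg_eq_inv a

theorem chi_mul (hζ : IsPrimitiveRoot ζ r) (q : ℕ) (a : ZMod r) :
    chi ζ ((q : ZMod r) * a) = chi ζ a ^ q := by
  rw [← nsmul_eq_mul]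
  exact (AddChar.zmodChar r hζ.pow_eq_one).map_nsmul_eq_pow q a

theorem chi_pow_eq_one (hζ : IsPrimitiveRoot ζ r) (a : ZMod r) : chi ζ a ^ r = 1 := by
  rw [← chi_mul hζ]; simp [chi_zero]

theorem exists_chi (hζ : IsPrimitiveRoot ζ r) {a : E} (ha : a ^ r = 1) :
    ∃ k : ZMod r, chi ζ k = a := by
  obtain ⟨i, -, rfl⟩ := hζ.eq_pow_of_pow_eq_one ha
  exact ⟨i, chi_natCast hζ i⟩

variable [DecidableEq E]

theorem ms_ext_chi (hζ : IsPrimitiveRoot ζ r) {s t : Multiset E} (hs : ∀ a ∈ s, a ^ r = 1)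
    (ht : ∀ a ∈ t, a ^ r = 1) (h : ∀ k : ZMod r, s.count (chi ζ k) = t.count (chi ζ k)) :
    s = t := by
  ext a
  by_cases ha : a ^ r = 1
  · obtain ⟨k, rfl⟩ := exists_chi hζ ha
    exact h k
  · rw [Multiset.count_eq_zero_of_notMem fun h => ha (hs a h),
      Multiset.count_eq_zero_of_notMem fun h => ha (ht a h)]

/-- the multiset with given multiplicities -/
def msOf (ζ : E) (f : ZMod r → ℕ) : Multiset E := ∑ k, Multiset.replicate (f k) (chi ζ k)

theorem count_msOf (hζ : IsPrimitiveRoot ζ r) (f : ZMod r → ℕ) (k : ZMod r) :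
    (msOf ζ f).count (chi ζ k) = f k := by
  simp [msOf, Multiset.count_sum', Multiset.count_replicate, (chi_inj hζ).eq_iff]

theorem card_msOf (f : ZMod r → ℕ) : (msOf ζ f).card = ∑ k, f k := by simp [msOf]

theorem pow_of_mem_msOf (hζ : IsPrimitiveRoot ζ r) (f : ZMod r → ℕ) :
    ∀ a ∈ msOf ζ f, a ^ r = 1 := fun a ha => by
  obtain ⟨k, -, hk⟩ := Multiset.mem_sum.1 ha
  rw [Multiset.eq_of_mem_replicate hk, chi_pow_eq_one hζ]

theorem msOf_count (hζ : IsPrimitiveRoot ζ r) {s : Multiset E} (hs : ∀ a ∈ s, a ^ r = 1) :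
    msOf ζ (fun k : ZMod r => s.count (chi ζ k)) = s :=
  ms_ext_chi hζ (pow_of_mem_msOf hζ _) hs (count_msOf hζ _)

theorem map_eq_iff_count (hζ : IsPrimitiveRoot ζ r) {s : Multiset E} (hs : ∀ a ∈ s, a ^ r = 1)
    {ψ : E → E} (hψ : Function.Injective ψ) (π : ZMod r → ZMod r) (hπ : Function.Surjective π)
    (h : ∀ k, ψ (chi ζ k) = chi ζ (π k)) :
    s.map ψ = s ↔ ∀ k, s.count (chi ζ (π k)) = s.count (chi ζ k) := by
  refine ⟨fun h1 k => ?_, fun h1 => ms_ext_chi hζ (fun a ha => ?_) hs fun k => ?_⟩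
  · conv_lhs => rw [← h1, ← h]
    exact Multiset.count_map_eq_count' _ _ hψ _
  · obtain ⟨b, hb, rfl⟩ := Multiset.mem_map.1 ha
    obtain ⟨k, rfl⟩ := exists_chi hζ (hs b hb)
    rw [h, chi_pow_eq_one hζ]
  · obtain ⟨k, rfl⟩ := hπ k
    rw [h1, ← h, Multiset.count_map_eq_count' _ _ hψ]

end Chi

theorem inv_zpowers_iff {K : Type*} [Field K] [Finite K] (u : Kˣ) (f : K → ℕ) :
    (∀ v ∈ Subgroup.zpowers u, ∀ k, f (v * k) = f k) ↔ ∀ k, f (u * k) = f k := by
  refine ⟨fun h => h u (Subgroup.mem_zpowers u), fun h v hv => ?_⟩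
  obtain ⟨i, rfl⟩ := (isOfFinOrder_of_finite u).mem_powers_iff_mem_zpowers.2 hv
  induction i with
  | zero => simp
  | succ i ih =>
    intro k
    have := ih ((isOfFinOrder_of_finite u).mem_powers_iff_mem_zpowers.1 ⟨i, rfl⟩) (u * k)
    simp only [pow_succ, Units.val_mul, mul_assoc] at this ⊢
    rw [this, h]

/-- classes of elements of prime order `r` in a matrix group -/
theorem card_classes_ordR [Finite F] [DecidableEq E] {G : Type*} [Group G] {r : ℕ} [Fact r.Prime]
    (ε : F →+* E) {ζ : E} (hζ : IsPrimitiveRoot ζ r) (ρ : G →* Matrix ι ι F)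
    (hρ : Function.Injective ρ) (u : (ZMod r)ˣ)
    (hconj : ∀ g h, g ^ r = 1 → IsConj (ρ g) (ρ h) → IsConj g h)
    (hinv : ∀ g s, (∀ a ∈ s, a ^ r = 1) → IsDg ε (ρ g) s →
      ∀ k : ZMod r, s.count (chi ζ ((u : ZMod r) * k)) = s.count (chi ζ k))
    (hex : ∀ s : Multiset E, s.card = Fintype.card ι → (∀ a ∈ s, a ^ r = 1) →
      (∀ k : ZMod r, s.count (chi ζ ((u : ZMod r) * k)) = s.count (chi ζ k)) → ∃ g, IsDg ε (ρ g) s) :
    Nat.card {C : ConjClasses G // ∃ g, ConjClasses.mk g = C ∧ orderOf g = r} =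
      (Fintype.card ι / orderOf u + (r - 1) / orderOf u).choose ((r - 1) / orderOf u) - 1 := by
  classical
  have hr := (Fact.out : r.Prime).pos
  have hpow : ∀ g s, IsDg ε (ρ g) s → (g ^ r = 1 ↔ ∀ a ∈ s, a ^ r = 1) := fun g s h => by
    rw [← hρ.eq_iff, map_pow, map_one]
    simpa using h.pow_eq_smul_iff r 1
  have hdg : ∀ g, g ^ r = 1 → ∃ s, IsDg ε (ρ g) s := fun g hg =>
    exists_isDg_pow ε hr hζ one_ne_zero (α := 1) (by simp) (by rw [← map_pow, hg]; simp)
  choose! s hs using hdg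
  let T := {f : ZMod r → ℕ // ∑ k, f k = Fintype.card ι ∧
    ∀ v ∈ Subgroup.zpowers u, ∀ k : ZMod r, f ((v : ZMod r) * k) = f k}
  let f₀ : T := ⟨fun k => if k = 0 then Fintype.card ι else 0, by simp, by simp⟩
  have hT := card_inv_fun (Subgroup.zpowers u) (Fintype.card ι)
  rw [Nat.card_zpowers, ZMod.card] at hT
  have hone : ∀ g s, (∀ a ∈ s, a ^ r = 1) → IsDg ε (ρ g) s →
      (g = 1 ↔ (fun k : ZMod r => s.count (chi ζ k)) = f₀.1) := fun g s h1 h => by
    rw [← hρ.eq_iff, map_one, h.eq_one_iff]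
    constructor
    · intro h2
      ext k
      by_cases hk : k = 0
      · simp only [hk, f₀, if_true, chi_zero, ← h.card_eq]
        exact Multiset.count_eq_card.2 fun a ha => (h2 a ha).symm
      · simp only [hk, f₀, if_false]
        exact Multiset.count_eq_zero_of_notMem fun h3 =>
          hk (chi_inj hζ ((h2 _ h3).trans chi_zero.symm))
    · intro h2 a ha
      have := congrFun h2 0
      simp only [f₀, if_true, chi_zero, ← h.card_eq] at this
      exact (Multiset.count_eq_card.1 this a ha).symm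
  rw [card_classes_of_inv (fun g : G => orderOf g = r) (fun g (k : ZMod r) => (s g).count (chi ζ k))
    (fun f : ZMod r → ℕ => (∑ k, f k = Fintype.card ι ∧
      ∀ v ∈ Subgroup.zpowers u, ∀ k : ZMod r, f ((v : ZMod r) * k) = f k) ∧ f ≠ f₀.1), ← hT]
  · haveI : Finite T := Nat.finite_of_card_ne_zero (by
      rw [hT]; exact (Nat.choose_pos (Nat.le_add_left _ _)).ne')
    haveI := Fintype.ofFinite T
    rw [← Nat.card_congr (Equiv.subtypeSubtypeEquivSubtypeInter _ _)]
    change Nat.card {f : T // f.1 ≠ f₀.1} = Nat.card T - 1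
    simp only [ne_eq, Subtype.val_inj]
    rw [Nat.card_eq_fintype_card, Fintype.card_subtype_compl, Nat.card_eq_fintype_card]
    simp
  · intro g hg
    obtain ⟨h1, h2⟩ := orderOf_eq_prime_iff'.1 hg
    have h3 := (hpow g _ (hs g h1)).1 h1
    refine ⟨⟨?_, (inv_zpowers_iff u fun k => (s g).count (chi ζ k)).2 (hinv g _ h3 (hs g h1))⟩,
      fun h => h2 ((hone g _ h3 (hs g h1)).2 h)⟩
    rw [← card_msOf (ζ := ζ), msOf_count hζ h3, (hs g h1).card_eq]
  · intro g h hg hh
    have h1 := (orderOf_eq_prime_iff'.1 hg).1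
    have h2 := (orderOf_eq_prime_iff'.1 hh).1
    refine ⟨fun hc => by rw [(hs g h1).eq_of_isConj (hs h h2) (ρ.map_isConj hc)], fun he => ?_⟩
    have := ms_ext_chi hζ ((hpow g _ (hs g h1)).1 h1) ((hpow h _ (hs h h2)).1 h2) (congrFun he)
    exact hconj g h h1 ((hs g h1).isConj (this ▸ hs h h2))
  · rintro f ⟨⟨h1, h2⟩, h3⟩
    have h4 := pow_of_mem_msOf hζ f
    obtain ⟨g, hg⟩ := hex (msOf ζ f) (by rw [card_msOf, h1]) h4 fun k => by
      rw [count_msOf hζ, count_msOf hζ, (inv_zpowers_iff u _).1 h2]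
    have h5 := (hpow g _ hg).2 h4
    have h6 : (fun k : ZMod r => (msOf ζ f).count (chi ζ k)) = f := funext (count_msOf hζ f)
    refine ⟨g, orderOf_eq_prime_iff'.2 ⟨h5, fun h => h3 ?_⟩, ?_⟩
    · rw [← h6]; exact (hone g _ h4 hg).1 h
    · rw [(hs g h5).unique hg, h6]

theorem natCast_prime_ne_zero {p r : ℕ} [Fact p.Prime] [CharP F p] (hr : r.Prime) (hrp : r ≠ p) :
    (r : F) ≠ 0 := fun h =>
  hrp ((Nat.prime_dvd_prime_iff_eq Fact.out hr).1 ((CharP.cast_eq_zero_iff F p r).1 h)).symm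

theorem card_cast_ne_zero [Fintype F] {r : ℕ} (hr : r.Prime) (h : (r : F) ≠ 0) :
    (Fintype.card F : ZMod r) ≠ 0 := fun h1 => by
  obtain ⟨p, f, hp, hf, hq, hc⟩ := exists_card_eq_pow F
  rw [ZMod.natCast_eq_zero_iff, hq] at h1
  obtain rfl := (Nat.prime_dvd_prime_iff_eq hr hp).1 (hr.dvd_of_dvd_pow h1)
  exact h (CharP.cast_eq_zero F r)

theorem neg_one_mem_zpowers {K : Type*} [Field K] [Finite K] {u : Kˣ} (h : Even (orderOf u)) :
    u ^ (orderOf u / 2) = -1 := by
  obtain ⟨k, hk⟩ := h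
  have h0 := orderOf_pos u
  have h1 : (u ^ k) ^ 2 = 1 := by rw [← pow_mul, mul_two, ← hk, pow_orderOf_eq_one]
  rw [show orderOf u / 2 = k by omega]
  have h2 : ((u ^ k : Kˣ) : K) ^ 2 = 1 := by rw [← Units.val_pow_eq_pow_val, h1]; rfl
  rcases sq_eq_one_iff.1 h2 with h3 | h3
  · exact absurd (Units.val_eq_one.1 h3) (pow_ne_one_of_lt_orderOf (by omega) (by omega))
  · exact Units.ext h3

theorem orderOf_neg_units {K : Type*} [Field K] [Finite K] (h2 : (2 : K) ≠ 0) (u : Kˣ) :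
    orderOf (-u) = if Odd (orderOf u) then 2 * orderOf u else
      if orderOf u % 4 = 2 then orderOf u / 2 else orderOf u := by
  have h0 := orderOf_pos u
  split_ifs with h3 h4
  · have h1 : orderOf (-1 : Kˣ) = 2 := orderOf_eq_prime (by simp) fun h => h2 (by
      have := congrArg Units.val h
      simp only [Units.val_neg, Units.val_one] at this
      linear_combination -this)
    rw [← neg_one_mul, (Commute.all _ _).orderOf_mul_eq_mul_orderOf_of_coprime (by
      rw [h1]; exact Nat.coprime_two_left.2 h3), h1]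
  · have he := Nat.not_odd_iff_even.1 h3
    rw [← neg_one_mul, ← neg_one_mem_zpowers he, ← pow_succ, orderOf_pow]
    congr 1
    obtain ⟨k, hk⟩ : ∃ k, orderOf u = 2 * (2 * k + 1) := ⟨orderOf u / 4, by omega⟩
    rw [hk, show 2 * (2 * k + 1) / 2 + 1 = 2 * (k + 1) by omega, Nat.gcd_mul_left]
    have : Nat.gcd (2 * k + 1) (k + 1) = 1 := by
      rw [show 2 * k + 1 = k + (k + 1) by ring, Nat.gcd_add_self_left]; simp
    rw [this]
  · have he := Nat.not_odd_iff_even.1 h3
    rw [← neg_one_mul, ← neg_one_mem_zpowers he, ← pow_succ, orderOf_pow]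
    obtain ⟨j, hj⟩ := he
    obtain ⟨k, hk⟩ : ∃ k, orderOf u = 2 * (2 * k) := ⟨orderOf u / 4, by omega⟩
    have : Nat.Coprime (2 * (2 * k)) (2 * k + 1) :=
      Nat.Coprime.mul_left (by simp) (by simp)
    rw [hk, show 2 * (2 * k) / 2 + 1 = 2 * k + 1 by omega, this, Nat.div_one]

end CfsgH1
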