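import Cfsg.Agent.H1.OrdR

set_option autoImplicit false
set_option maxHeartbeats 400000
set_option linter.unusedSectionVars false

namespace CfsgH1

open Matrix Module CfsgH7 Polynomial

section Fun
variable {r : ℕ} [Fact r.Prime] {n : ℕ}

theorem card_conc (hn : 0 < n) :
    Nat.card {f : ZMod r → ℕ // ∑ k, f k = n ∧ ∃ k₀, ∀ k, k ≠ k₀ → f k = 0} = r := by
  classical
  conv_rhs => rw [← ZMod.card r, ← Nat.card_eq_fintype_card]
  symm
  refine Nat.card_eq_of_bijective (fun k₀ => ⟨Pi.single k₀ n, by simp, k₀, fun k hk => by simp [hk]⟩)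
    ⟨fun a b h => ?_, ?_⟩
  · by_contra hab
    have := congrFun (congrArg Subtype.val h) a
    simp [hab] at this
    omega
  · rintro ⟨f, h1, k₀, h2⟩
    refine ⟨k₀, Subtype.ext (funext fun k => ?_)⟩
    by_cases hk : k = k₀
    · subst hk
      rw [Finset.sum_eq_single k (fun b _ hb => h2 b hb) (by simp)] at h1
      simp [h1]
    · simp [hk, h2 k hk]

theorem card_nonconc (hn : 0 < n) :
    Nat.card {f : ZMod r → ℕ // ∑ k, f k = n ∧ ¬ ∃ k₀, ∀ k, k ≠ k₀ → f k = 0} =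
      (n + r - 1).choose (r - 1) - r := by
  classical
  have h1 := card_fun_sum_eq (ZMod r) n
  have hr := (Fact.out : r.Prime).pos
  rw [ZMod.card, show r + n - 1 = n + (r - 1) by omega, Nat.choose_symm_add,
    show n + (r - 1) = n + r - 1 by omega] at h1
  haveI : Finite {f : ZMod r → ℕ // ∑ k, f k = n} :=
    Nat.finite_of_card_ne_zero (by rw [h1]; exact (Nat.choose_pos (by omega)).ne')
  haveI := Fintype.ofFinite {f : ZMod r → ℕ // ∑ k, f k = n}
  have h2 := card_conc (r := r) hn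
  rw [← Nat.card_congr (Equiv.subtypeSubtypeEquivSubtypeInter _ _)] at h2 ⊢
  rw [Nat.card_eq_fintype_card, Fintype.card_subtype_compl, ← Nat.card_eq_fintype_card,
    ← Nat.card_eq_fintype_card, h1, h2]

theorem const_of_shift {j : ZMod r} (hj : j ≠ 0) {f : ZMod r → ℕ} (h : ∀ k, f (j + k) = f k)
    (k : ZMod r) : f k = f 0 := by
  have : ∀ m : ℕ, f (m * j) = f 0 := fun m => by
    induction m with
    | zero => simp
    | succ m ih => rw [← ih, ← h (m * j)]; congr 1; push_cast; ring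
  rw [← this (k / j).val, ZMod.natCast_zmod_val, div_mul_cancel₀ _ hj]

theorem not_conc_of_shift (hn : 0 < n) {j : ZMod r} (hj : j ≠ 0) {f : ZMod r → ℕ}
    (h1 : ∑ k, f k = n) (h : ∀ k, f (j + k) = f k) : ¬ ∃ k₀, ∀ k, k ≠ k₀ → f k = 0 := by
  rintro ⟨k₀, h2⟩
  have h3 := h2 (k₀ + 1) (by simp)
  rw [const_of_shift hj h] at h3
  simp [const_of_shift hj h, h3] at h1
  omega

theorem card_shift {j : ZMod r} (hj : j ≠ 0) :
    Nat.card {f : ZMod r → ℕ // ∑ k, f k = n ∧ ∀ k, f (j + k) = f k} = if r ∣ n then 1 else 0 := by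
  have key : ∀ f : ZMod r → ℕ, (∀ k, f (j + k) = f k) → ∑ k, f k = r * f 0 := fun f h => by
    simp [const_of_shift hj h]
  split_ifs with h
  · obtain ⟨m, rfl⟩ := h
    refine Nat.card_eq_one_iff_exists.2 ⟨⟨fun _ => m, by simp, by simp⟩, ?_⟩
    rintro ⟨f, h1, h2⟩
    rw [key f h2] at h1
    exact Subtype.ext (funext fun k => (const_of_shift hj h2 k).trans
      (Nat.eq_of_mul_eq_mul_left (Fact.out : r.Prime).pos h1))
  · haveI : IsEmpty {f : ZMod r → ℕ // ∑ k, f k = n ∧ ∀ k, f (j + k) = f k} :=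
      ⟨fun ⟨f, h1, h2⟩ => h ⟨_, by rw [← h1, key f h2]⟩⟩
    simp

end Fun

variable {F E : Type*} [Field F] [Field E] {ι : Type*} [Fintype ι] [DecidableEq ι]

section Ms
variable [DecidableEq E] {r : ℕ} [Fact r.Prime] {ζ α : E}

/-- the scaled multiset -/
def msA (α ζ : E) (f : ZMod r → ℕ) : Multiset E := (msOf ζ f).map (α * ·)

theorem count_msA (hζ : IsPrimitiveRoot ζ r) (hα : α ≠ 0) (f : ZMod r → ℕ) (k : ZMod r) :
    (msA α ζ f).count (α * chi ζ k) = f k := by
  rw [msA, Multiset.count_map_eq_count' _ _ (mul_right_injective₀ hα), count_msOf hζ]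

theorem card_ms_eq (hζ : IsPrimitiveRoot ζ r) (hα : α ≠ 0) (P : Multiset E → Prop) :
    Nat.card {s : Multiset E // (∀ a ∈ s, a ^ r = α ^ r) ∧ P s} =
      Nat.card {f : ZMod r → ℕ // P (msA α ζ f)} := by
  symm
  refine Nat.card_eq_of_bijective (fun f => ⟨msA α ζ f.1, fun a ha => ?_, f.2⟩)
    ⟨fun f g h => Subtype.ext (funext fun k => ?_), ?_⟩
  · obtain ⟨b, hb, rfl⟩ := Multiset.mem_map.1 ha
    rw [mul_pow, pow_of_mem_msOf hζ _ b hb, mul_one]
  · rw [← count_msA hζ hα f.1, ← count_msA hζ hα g.1, Subtype.mk.inj h]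
  · rintro ⟨s, h1, h2⟩
    have : msA α ζ (fun k : ZMod r => (s.map (α⁻¹ * ·)).count (chi ζ k)) = s := by
      rw [msA, msOf_count hζ, Multiset.map_map]
      · simp [hα]
      · intro a ha
        obtain ⟨b, hb, rfl⟩ := Multiset.mem_map.1 ha
        rw [mul_pow, h1 b hb, ← mul_pow, inv_mul_cancel₀ hα, one_pow]
    exact ⟨⟨_, this.symm ▸ h2⟩, Subtype.ext this⟩

theorem card_msA (f : ZMod r → ℕ) : (msA α ζ f).card = ∑ k, f k := by simp [msA, card_msOf]

theorem mem_msA (hζ : IsPrimitiveRoot ζ r) (hα : α ≠ 0) {f : ZMod r → ℕ} {a : E} :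
    a ∈ msA α ζ f ↔ ∃ k, f k ≠ 0 ∧ a = α * chi ζ k := by
  constructor
  · intro ha
    obtain ⟨b, hb, rfl⟩ := Multiset.mem_map.1 ha
    obtain ⟨k, rfl⟩ := exists_chi hζ (pow_of_mem_msOf hζ _ b hb)
    exact ⟨k, by rw [← count_msA hζ hα f]; exact Multiset.count_ne_zero.2 ha, rfl⟩
  · rintro ⟨k, hk, rfl⟩
    rwa [← Multiset.count_ne_zero, count_msA hζ hα]

theorem msA_const_iff (hζ : IsPrimitiveRoot ζ r) (hα : α ≠ 0) {f : ZMod r → ℕ} :
    (∃ b, ∀ a ∈ msA α ζ f, a = b) ↔ ∃ k₀, ∀ k, k ≠ k₀ → f k = 0 := by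
  constructor
  · rintro ⟨b, hb⟩
    by_cases h : ∃ k₀, f k₀ ≠ 0
    · obtain ⟨k₀, h0⟩ := h
      refine ⟨k₀, fun k hk => by_contra fun h1 => hk (chi_inj hζ (mul_left_cancel₀ hα ?_))⟩
      rw [hb _ ((mem_msA hζ hα).2 ⟨k, h1, rfl⟩), hb _ ((mem_msA hζ hα).2 ⟨k₀, h0, rfl⟩)]
    · exact ⟨0, fun k _ => by simpa using not_exists.1 h k⟩
  · rintro ⟨k₀, h⟩
    refine ⟨α * chi ζ k₀, fun a ha => ?_⟩
    obtain ⟨k, hk, rfl⟩ := (mem_msA hζ hα).1 ha
    rw [not_not.1 fun h1 : k ≠ k₀ => hk (h k h1)]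

theorem msA_shift_iff (hζ : IsPrimitiveRoot ζ r) (hα : α ≠ 0) {f : ZMod r → ℕ} (j : ZMod r) :
    (msA α ζ f).map (chi ζ j * ·) = msA α ζ f ↔ ∀ k, f (j + k) = f k := by
  have h0 : chi ζ j ≠ 0 := pow_ne_zero _ (hζ.ne_zero (Fact.out : r.Prime).ne_zero)
  have := map_eq_iff_count hζ (pow_of_mem_msOf hζ f) (mul_right_injective₀ h0) (j + ·)
    (Equiv.addLeft j).surjective fun k => (chi_add hζ j k).symm
  simp only [count_msOf hζ] at this
  rw [← this, ← (Multiset.map_injective (mul_right_injective₀ hα)).eq_iff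
    (a := (msOf ζ f).map _), msA, Multiset.map_map, Multiset.map_map]
  simp only [Function.comp_def, mul_left_comm]

theorem map_mul_pow_eq {s : Multiset E} {l : E} (h : s.map (l * ·) = s) (i : ℕ) :
    s.map (l ^ i * ·) = s := by
  induction i with
  | zero => simp
  | succ i ih =>
    conv_rhs => rw [← ih, ← h, Multiset.map_map]
    simp only [Function.comp_def, pow_succ, mul_assoc]

end Ms

theorem card_roots_pow {N d : ℕ} [NeZero N] {η : E} (hη : IsPrimitiveRoot η N) (hd : d ∣ N) :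
    Nat.card {l : rootsOfUnity N E // l ^ d = 1} = d := by
  obtain ⟨k, rfl⟩ := hd
  haveI : NeZero d := ⟨left_ne_zero_of_mul (NeZero.ne (d * k))⟩
  have h1 := (hη.pow (NeZero.pos _) (mul_comm d k)).card_rootsOfUnity
  conv_rhs => rw [← h1]
  refine Nat.card_congr ⟨fun l => ⟨l.1.1, congrArg Subtype.val l.2⟩, fun l => ⟨⟨l.1, by
    rw [mem_rootsOfUnity, pow_mul, (mem_rootsOfUnity _ _).1 l.2, one_pow]⟩, Subtype.ext l.2⟩,
    fun _ => rfl, fun _ => rfl⟩

/-- the eigenvalue data of projective elements of order `r` -/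
def PX (E : Type*) [Field E] (n r N : ℕ) (e : ℤ) : Type _ :=
  {s : Multiset E // s.card = n ∧ s.map (fun a => a * (a ^ N) ^ e) = s ∧
    (∃ c, c ^ N = 1 ∧ ∀ a ∈ s, a ^ r = c) ∧ ¬ ∃ b, ∀ a ∈ s, a = b}

instance PX.mulAction (n r N : ℕ) (e : ℤ) : MulAction (rootsOfUnity N E) (PX E n r N e) where
  smul l s := ⟨s.1.map ((l.1 : E) * ·), by
    obtain ⟨s, h1, h2, ⟨c, h3, h4⟩, h5⟩ := s
    have hl : (l.1 : E) ^ N = 1 := (mem_rootsOfUnity' _ _).1 l.2
    refine ⟨by simpa using h1, ?_, ⟨(l.1 : E) ^ r * c, ?_, fun a ha => ?_⟩, fun ⟨b, hb⟩ => ?_⟩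
    · change (s.map _).map _ = s.map _
      conv_rhs => rw [← h2]
      simp only [Multiset.map_map, Function.comp_def, mul_pow, hl, one_mul, mul_assoc]
    · rw [mul_pow, h3, ← pow_mul, mul_comm r, pow_mul, hl]; simp
    · obtain ⟨b, hb, rfl⟩ := Multiset.mem_map.1 ha
      rw [mul_pow, h4 b hb]
    · refine h5 ⟨(l.1 : E)⁻¹ * b, fun a ha => ?_⟩
      rw [← hb _ (Multiset.mem_map_of_mem _ ha), inv_mul_cancel_left₀ l.1.ne_zero]⟩
  one_smul s := Subtype.ext (by change s.1.map _ = _; simp)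
  mul_smul a b s := Subtype.ext (by
    change s.1.map _ = (s.1.map _).map _
    simp [mul_assoc])

theorem PX.smul_val {n r N : ℕ} {e : ℤ} (l : rootsOfUnity N E) (s : PX E n r N e) :
    (l • s).1 = s.1.map ((l.1 : E) * ·) := rfl

theorem card_orbits_PX [Finite E] {n r N : ℕ} (hn : 0 < n) (hr : r.Prime) (hN : r ∣ N)
    (hN0 : 0 < N) {ξ : E} (hξ : IsPrimitiveRoot ξ (r * N)) {e : ℤ} (he : e = 1 ∨ e = -1) :
    Nat.card (MulAction.orbitRel.Quotient (rootsOfUnity N E) (PX E n r N e)) =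
      ((n + r - 1).choose (r - 1) - r - (if r ∣ n then 1 else 0)) / r +
        r * (if r ∣ n then 1 else 0) := by
  classical
  haveI := Fact.mk hr
  haveI : NeZero N := ⟨hN0.ne'⟩
  obtain ⟨M, rfl⟩ := hN
  have hM : 0 < M := Nat.pos_of_mul_pos_left hN0
  have hpos : 0 < r * (r * M) := Nat.mul_pos hr.pos hN0
  have hη : IsPrimitiveRoot (ξ ^ r) (r * M) := hξ.pow hpos rfl
  have hζ : IsPrimitiveRoot (ξ ^ (r * M)) r := hξ.pow hpos (mul_comm _ _)
  set ζ := ξ ^ (r * M)
  set Λ := rootsOfUnity (r * M) E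
  set X := PX E n r (r * M) e
  set δ := if r ∣ n then 1 else 0 with hδ
  set A := (n + r - 1).choose (r - 1) - r
  haveI := Fintype.ofFinite E
  haveI := Fintype.ofFinite Λ
  haveI : Finite {s : Multiset E // s.card = n} := inferInstanceAs (Finite (Sym E n))
  haveI : Finite X := Finite.of_injective
    (fun s : X => (⟨s.1, s.2.1⟩ : {s : Multiset E // s.card = n}))
    fun a b h => Subtype.ext (Subtype.mk.inj h)
  have hΛ : ∀ l : Λ, (l.1 : E) ^ (r * M) = 1 := fun l => (mem_rootsOfUnity' _ _).1 l.2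
  have hroot : ∀ c : Λ, ∃ α : E, α ≠ 0 ∧ α ^ r = c.1 := fun c => by
    obtain ⟨i, -, hi⟩ := hη.eq_pow_of_pow_eq_one (hΛ c)
    exact ⟨ξ ^ i, pow_ne_zero _ (hξ.ne_zero hpos.ne'), by rw [← hi, ← pow_mul, ← pow_mul, mul_comm]⟩
  have hphi : ∀ (s : Multiset E) (c : E), (∀ a ∈ s, a ^ r = c) →
      s.map (fun a => a * (a ^ (r * M)) ^ e) = s.map ((c ^ M) ^ e * ·) := fun s c h =>
    Multiset.map_congr rfl fun a ha => by rw [pow_mul, h a ha, mul_comm]
  have hsig : ∀ P : Multiset E → Prop, Nat.card {s : X // P s.1} =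
      ∑ c : Λ, Nat.card {s : Multiset E // (∀ a ∈ s, a ^ r = c.1) ∧ (s.card = n ∧
        s.map (((c.1 : E) ^ M) ^ e * ·) = s ∧ (¬ ∃ b, ∀ a ∈ s, a = b) ∧ P s)} := fun P => by
    haveI : ∀ c : Λ, Finite {s : Multiset E // (∀ a ∈ s, a ^ r = c.1) ∧ (s.card = n ∧
        s.map (((c.1 : E) ^ M) ^ e * ·) = s ∧ (¬ ∃ b, ∀ a ∈ s, a = b) ∧ P s)} := fun c =>
      Finite.of_injective (fun s => (⟨s.1, s.2.2.1⟩ : {s : Multiset E // s.card = n}))
        fun a b h => Subtype.ext (Subtype.mk.inj h)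
    rw [← Nat.card_sigma]
    symm
    refine Nat.card_eq_of_bijective (fun p => ⟨⟨p.2.1, p.2.2.2.1,
      (hphi _ _ p.2.2.1).trans p.2.2.2.2.1, ⟨_, hΛ p.1, p.2.2.1⟩, p.2.2.2.2.2.1⟩, p.2.2.2.2.2.2⟩)
      ⟨?_, ?_⟩
    · rintro ⟨c, s, h1, h2, h3⟩ ⟨c', s', h1', h2', h3'⟩ h
      obtain rfl : s = s' := congrArg (fun x => x.1.1) h
      obtain ⟨a, ha⟩ := Multiset.card_pos_iff_exists_mem.1 (h2 ▸ hn)
      obtain rfl : c = c' := Subtype.ext (Units.ext ((h1 a ha).symm.trans (h1' a ha)))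
      rfl
    · rintro ⟨⟨s, h1, h2, ⟨c, h3, h4⟩, h5⟩, h6⟩
      exact ⟨⟨rootsOfUnity.mkOfPowEq c h3, s, h4, h1, (hphi _ _ h4).symm.trans h2, h5, h6⟩, rfl⟩
  have hw : ∀ c : Λ, ∃ j : ZMod r, chi ζ j = ((c.1 : E) ^ M) ^ e := fun c =>
    exists_chi hζ (by rw [← zpow_natCast, ← _root_.zpow_mul, mul_comm, _root_.zpow_mul,
      zpow_natCast, ← pow_mul, mul_comm, hΛ, _root_.one_zpow])
  have hX : Nat.card X = M * A + (r * M - M) * δ := by
    have h1 := hsig fun _ => True
    rw [Nat.card_congr (Equiv.subtypeUnivEquiv fun _ => trivial)] at h1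
    rw [h1, Finset.sum_congr rfl (g := fun c => if c ^ M = 1 then A else δ) fun c _ => ?_]
    · rw [Finset.sum_ite, Finset.sum_const, Finset.sum_const, ← Fintype.card_subtype,
        ← Fintype.card_subtype, Fintype.card_subtype_compl, ← Nat.card_eq_fintype_card,
        card_roots_pow hη (Dvd.intro_left r rfl), ← Nat.card_eq_fintype_card, hη.card_rootsOfUnity]
      rfl
    · obtain ⟨α, h0, hα⟩ := hroot c
      obtain ⟨j, hj⟩ := hw c
      rw [← hj, ← hα, card_ms_eq hζ h0]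
      simp only [card_msA, msA_shift_iff hζ h0, msA_const_iff hζ h0, and_true]
      split_ifs with h
      · have : j = 0 := chi_inj hζ (by
          rw [hj, chi_zero, ← Units.val_pow_eq_pow_val, ← SubmonoidClass.coe_pow, h]; simp)
        simp only [this, zero_add, implies_true, true_and]
        exact card_nonconc hn
      · have hj0 : j ≠ 0 := by
          rintro rfl
          rw [chi_zero] at hj
          apply h
          apply Subtype.ext; apply Units.ext
          rcases he with rfl | rfl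
          · simpa using hj.symm
          · simpa using hj.symm
        rw [hδ, ← card_shift hj0]
        exact Nat.card_congr (Equiv.subtypeEquivRight fun f =>
          ⟨fun h => ⟨h.1, h.2.1⟩, fun h => ⟨h.1, h.2, not_conc_of_shift hn hj0 h.1 h.2⟩⟩)
  have hfix : ∀ l : Λ, Nat.card (MulAction.fixedBy X l) =
      (if l = 1 then Nat.card X - r * M * δ else 0) + if l ^ r = 1 then r * M * δ else 0 := by
    intro l
    by_cases h1 : l = 1
    · subst h1
      have : r * M * δ ≤ Nat.card X := by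
        rw [hX]
        by_cases h : r ∣ n
        · have h2 := card_shift (r := r) (n := n) one_ne_zero
          rw [if_pos h] at h2
          obtain ⟨f, -⟩ := Nat.card_eq_one_iff_exists.1 h2
          have h3 : 0 < A := by
            rw [← show _ = A from card_nonconc hn]
            haveI : Finite {f : ZMod r → ℕ // ∑ k, f k = n ∧ ¬ ∃ k₀, ∀ k, k ≠ k₀ → f k = 0} :=
              Finite.of_injective (fun f => (Sym.equivNatSumOfFintype _ n).symm ⟨f.1, f.2.1⟩)
                fun a b h => Subtype.ext (Subtype.mk.inj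
                  ((Sym.equivNatSumOfFintype _ n).symm.injective h))
            exact Nat.card_pos_iff.2 ⟨⟨⟨f.1, f.2.1, not_conc_of_shift hn one_ne_zero f.2.1 f.2.2⟩⟩,
              this⟩
          have h4 : M ≤ M * A := Nat.le_mul_of_pos_right _ h3
          simp only [hδ, if_pos h, mul_one]; omega
        · simp [hδ, h]
      simp only [MulAction.fixedBy_one_eq_univ, Nat.card_univ, if_true, one_pow]
      omega
    · rw [if_neg h1, zero_add]
      split_ifs with h2
      · have h3 : (l.1 : E) ^ r = 1 := by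
          rw [← Units.val_pow_eq_pow_val, ← SubmonoidClass.coe_pow, h2]; rfl
        obtain ⟨j, hj⟩ := exists_chi hζ h3
        have hj0 : j ≠ 0 := by
          rintro rfl
          exact h1 (Subtype.ext (Units.ext (hj.symm.trans chi_zero)))
        rw [Nat.card_congr (Equiv.subtypeEquivRight (q := fun s : X => s.1.map ((l.1 : E) * ·) = s.1)
          fun s => Subtype.ext_iff), hsig fun s => s.map ((l.1 : E) * ·) = s,
          Finset.sum_congr rfl (g := fun _ => δ) fun c _ => ?_]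
        · rw [Finset.sum_const, Finset.card_univ, ← Nat.card_eq_fintype_card,
            hη.card_rootsOfUnity]; rfl
        · obtain ⟨α, h0, hα⟩ := hroot c
          obtain ⟨i, hi⟩ := hw c
          rw [← hj, ← hi, ← hα, card_ms_eq hζ h0]
          simp only [card_msA, msA_shift_iff hζ h0, msA_const_iff hζ h0]
          rw [hδ, ← card_shift hj0]
          exact Nat.card_congr (Equiv.subtypeEquivRight fun f =>
            ⟨fun h => ⟨h.1, h.2.2.2⟩, fun h => ⟨h.1, fun k => by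
              rw [const_of_shift hj0 h.2, const_of_shift hj0 h.2 k],
              not_conc_of_shift hn hj0 h.1 h.2, h.2⟩⟩)
      · haveI : IsEmpty (MulAction.fixedBy X l) := ⟨fun ⟨⟨s, h3, _, ⟨c, h4, h5⟩, _⟩, hs⟩ => by
          have h6 : s.map ((l.1 : E) * ·) = s := congrArg Subtype.val hs
          obtain ⟨a, ha⟩ := Multiset.card_pos_iff_exists_mem.1 (h3 ▸ hn)
          have h7 := h5 _ (h6 ▸ Multiset.mem_map_of_mem _ ha)
          have h8 : c ≠ 0 := by rintro rfl; simp [hN0.ne'] at h4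
          rw [mul_pow, h5 a ha, mul_eq_right₀ h8] at h7
          exact h2 (Subtype.ext (Units.ext (by simpa using h7)))⟩
        simp
  haveI := Fintype.ofFinite (MulAction.orbitRel.Quotient Λ X)
  haveI := fun l : Λ => Fintype.ofFinite (MulAction.fixedBy X l)
  have hB := MulAction.sum_card_fixedBy_eq_card_orbits_mul_card_group Λ X
  simp only [← Nat.card_eq_fintype_card (α := MulAction.fixedBy X _), hfix] at hB
  rw [Finset.sum_add_distrib, Finset.sum_ite_eq', ← Finset.sum_filter, Finset.sum_const,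
    ← Fintype.card_subtype, ← Nat.card_eq_fintype_card, card_roots_pow hη (Dvd.intro _ rfl),
    ← Nat.card_eq_fintype_card (α := Λ), hη.card_rootsOfUnity, ← Nat.card_eq_fintype_card,
    hX] at hB
  simp only [Finset.mem_univ, if_true, smul_eq_mul] at hB
  set o := Nat.card (MulAction.orbitRel.Quotient Λ X)
  have hr1 := hr.one_lt
  by_cases h : r ∣ n
  · simp only [hδ, if_pos h, mul_one] at hB ⊢
    have h1 : M ≤ r * M := Nat.le_mul_of_pos_left _ hr.pos
    have h2 : M * (A - 1) + r * (r * M) = o * (r * M) := by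
      rw [← hB, Nat.mul_sub_one]; omega
    have h3 : A - 1 + r * r = o * r := Nat.eq_of_mul_eq_mul_left hM (by linear_combination h2)
    rw [← Nat.add_mul_div_left _ _ hr.pos, h3, Nat.mul_div_cancel _ hr.pos]
  · simp only [hδ, if_neg h, mul_zero, add_zero, Nat.sub_zero] at hB ⊢
    have h3 : A = o * r := Nat.eq_of_mul_eq_mul_left hM (by linear_combination hB)
    rw [h3, Nat.mul_div_cancel _ hr.pos]

theorem isDg_scalar (ε : F →+* E) (c : F) :
    IsDg ε (c • (1 : Matrix ι ι F)) (Multiset.replicate (Fintype.card ι) (ε c)) := by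
  refine ⟨fun _ => ε c, by simp, ?_⟩
  convert IsConj.refl _
  ext i j; by_cases h : i = j <;> simp [h]

theorem isConj_mk_iff {G : Type*} [Group G] {a b : G} :
    IsConj (QuotientGroup.mk a : G ⧸ Subgroup.center G) (QuotientGroup.mk b) ↔
      ∃ z ∈ Subgroup.center G, IsConj (z * a) b := by
  constructor
  · intro h
    obtain ⟨x, hx⟩ := isConj_iff.1 h
    obtain ⟨x, rfl⟩ := QuotientGroup.mk_surjective x
    rw [← QuotientGroup.mk_inv, ← QuotientGroup.mk_mul, ← QuotientGroup.mk_mul,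
      QuotientGroup.eq] at hx
    refine ⟨_, hx, isConj_iff.2 ⟨x, ?_⟩⟩
    rw [← mul_assoc, Subgroup.mem_center_iff.1 hx x, mul_assoc, mul_assoc, ← mul_assoc x a,
      ← Subgroup.mem_center_iff.1 hx, mul_inv_cancel_left]
  · rintro ⟨z, hz, h⟩
    have := (QuotientGroup.mk' (Subgroup.center G)).map_isConj h
    rwa [map_mul, QuotientGroup.mk'_apply, (QuotientGroup.eq_one_iff z).2 hz, one_mul] at this

theorem card_classes_proj [Finite F] [Finite E] {G : Type*} [Group G] {r N : ℕ} (hr : r.Prime)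
    (hN : r ∣ N) (hN0 : 0 < N) (ε : F →+* E) {ξ : E} (hξ : IsPrimitiveRoot ξ (r * N))
    (ρ : G →* Matrix ι ι F) [Nonempty ι] {e : ℤ} (he : e = 1 ∨ e = -1)
    (hZ : ∀ g, g ∈ Subgroup.center G ↔ ∃ c : F, ρ g = c • 1)
    (hΛ : ∀ a : E, a ^ N = 1 → ∃ z c, ε c = a ∧ ρ z = c • 1)
    (hconj : ∀ g h, IsConj (ρ g) (ρ h) → IsConj g h)
    (hinv : ∀ g s, IsDg ε (ρ g) s → s.map (fun a => a * (a ^ N) ^ e) = s)
    (hex : ∀ s : Multiset E, s.card = Fintype.card ι → (∀ a ∈ s, a ≠ 0) →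
      s.map (fun a => a * (a ^ N) ^ e) = s → ∃ g, IsDg ε (ρ g) s) :
    Nat.card {C : ConjClasses (G ⧸ Subgroup.center G) //
      ∃ g, ConjClasses.mk g = C ∧ orderOf g = r} =
      ((Fintype.card ι + r - 1).choose (r - 1) - r - (if r ∣ Fintype.card ι then 1 else 0)) / r +
        r * (if r ∣ Fintype.card ι then 1 else 0) := by
  classical
  haveI := Fact.mk hr
  haveI : NeZero N := ⟨hN0.ne'⟩
  have hpos : 0 < r * N := Nat.mul_pos hr.pos hN0
  have hη : IsPrimitiveRoot (ξ ^ r) N := hξ.pow hpos rfl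
  have hζ : IsPrimitiveRoot (ξ ^ N) r := hξ.pow hpos (mul_comm _ _)
  have hn : 0 < Fintype.card ι := Fintype.card_pos
  rw [← card_orbits_PX hn hr hN hN0 hξ he]
  have hsc : ∀ g c, ρ g = c • 1 → c ≠ 0 ∧ ε c ^ N = 1 := fun g c h => by
    have h1 : IsDg ε (ρ g) _ := h ▸ isDg_scalar ε c
    have h2 := h1.ne_zero ((Group.isUnit g).map ρ) _ (Multiset.mem_replicate.2 ⟨hn.ne', rfl⟩)
    have h3 := hinv g _ h1
    rw [Multiset.map_replicate, Multiset.replicate_right_inj hn.ne', mul_eq_left₀ h2] at h3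
    refine ⟨fun h0 => h2 (by rw [h0, map_zero]), ?_⟩
    rcases he with rfl | rfl
    · simpa using h3
    · simpa using h3
  have hne : ∀ s : PX E (Fintype.card ι) r N e, ∀ a ∈ s.1, a ≠ 0 := fun s a ha h0 => by
    obtain ⟨c, h1, h2⟩ := s.2.2.2.1
    rw [← h2 a ha, h0] at h1
    simp [hr.ne_zero, hN0.ne'] at h1
  choose g hg using fun s : PX E (Fintype.card ι) r N e => hex s.1 s.2.1 (hne s) s.2.2.1
  have hsm : ∀ z c x s, ρ z = c • 1 → IsDg ε (ρ x) s → IsDg ε (ρ (z * x)) (s.map (ε c * ·)) :=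
    fun z c x s h1 h2 => by
      rw [map_mul, h1, smul_mul_assoc, one_mul]; exact h2.smul c
  refine card_classes_of_reps _
    (fun t : MulAction.orbitRel.Quotient (rootsOfUnity N E) (PX E (Fintype.card ι) r N e) =>
      (QuotientGroup.mk (g t.out) : G ⧸ Subgroup.center G)) (fun t => ?_) (fun s t h => ?_)
      fun x hx => ?_
  · obtain ⟨c, h1, h2⟩ := t.out.2.2.2.1
    obtain ⟨z, c, rfl, -⟩ := hΛ c h1
    refine orderOf_eq_prime_iff'.2 ⟨?_, fun h => t.out.2.2.2.2 ?_⟩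
    · rw [← QuotientGroup.mk_pow, QuotientGroup.eq_one_iff, hZ]
      exact ⟨c, by rw [map_pow, (hg _).pow_eq_smul_iff]; exact h2⟩
    · obtain ⟨c, hc⟩ := (hZ _).1 ((QuotientGroup.eq_one_iff _).1 h)
      exact ⟨ε c, ((hg _).eq_smul_one_iff c).1 hc⟩
  · obtain ⟨z, hz, h1⟩ := isConj_mk_iff.1 h
    obtain ⟨c, hc⟩ := (hZ z).1 hz
    have h2 := (hsm z c _ _ hc (hg _)).eq_of_isConj (hg _) (ρ.map_isConj h1)
    rw [← Quotient.out_eq' s, ← Quotient.out_eq' t]
    have h3 : t.out ∈ MulAction.orbit (rootsOfUnity N E) s.out :=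
      ⟨rootsOfUnity.mkOfPowEq _ (hsc z c hc).2, Subtype.ext h2⟩
    exact (Quotient.sound' (MulAction.orbitRel_apply.2 h3)).symm
  · obtain ⟨x, rfl⟩ := QuotientGroup.mk_surjective x
    obtain ⟨h1, h2⟩ := orderOf_eq_prime_iff'.1 hx
    rw [← QuotientGroup.mk_pow, QuotientGroup.eq_one_iff, hZ] at h1
    obtain ⟨c, hc⟩ := h1
    obtain ⟨h3, h4⟩ := hsc _ c hc
    obtain ⟨i, -, hi⟩ := hη.eq_pow_of_pow_eq_one h4
    rw [map_pow] at hc
    obtain ⟨s, hs⟩ := exists_isDg_pow ε hr.pos hζ h3 (α := ξ ^ i)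
      (by rw [← hi, ← pow_mul, ← pow_mul, mul_comm]) hc
    let s' : PX E (Fintype.card ι) r N e := ⟨s, hs.card_eq, hinv _ _ hs,
      ⟨ε c, h4, (hs.pow_eq_smul_iff r c).1 hc⟩, fun ⟨b, hb⟩ => by
        obtain ⟨a, ha⟩ := Multiset.card_pos_iff_exists_mem.1 (hs.card_eq ▸ hn)
        have h5 := hinv _ _ hs
        have h6 := hb _ (h5 ▸ Multiset.mem_map_of_mem _ ha)
        have h7 := hs.ne_zero ((Group.isUnit x).map ρ) a ha
        rw [← hb a ha, mul_eq_left₀ h7] at h6
        obtain ⟨z, c', rfl, -⟩ := hΛ a (by rcases he with rfl | rfl <;> simpa using h6)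
        exact h2 ((QuotientGroup.eq_one_iff _).2 ((hZ x).2 ⟨c', (hs.eq_smul_one_iff c').2
          fun a' ha' => (hb a' ha').trans (hb _ ha).symm⟩))⟩
    refine ⟨Quotient.mk'' s', ?_⟩
    obtain ⟨l, hl⟩ : (Quotient.mk'' s' : MulAction.orbitRel.Quotient (rootsOfUnity N E) _).out ∈
      MulAction.orbit (rootsOfUnity N E) s' := Quotient.mk_out' (s₁ := MulAction.orbitRel _ _) s'
    obtain ⟨z, c', h5, h6⟩ := hΛ l.1 ((mem_rootsOfUnity' _ _).1 l.2)
    refine (isConj_mk_iff.2 ⟨z, (hZ z).2 ⟨c', h6⟩, hconj _ _ ((hsm z c' _ _ h6 hs).isConj ?_)⟩).symm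
    have h7 : s.map ((l.1 : E) * ·) = _ := congrArg Subtype.val hl
    rw [h5, h7]
    exact hg _

theorem card_classes_PGL [Fintype F] [Nonempty ι] {r : ℕ} (hr : r.Prime)
    (hrq : r ∣ Fintype.card F - 1) :
    Nat.card {C : ConjClasses (GL ι F ⧸ Subgroup.center (GL ι F)) //
      ∃ g, ConjClasses.mk g = C ∧ orderOf g = r} =
      ((Fintype.card ι + r - 1).choose (r - 1) - r - (if r ∣ Fintype.card ι then 1 else 0)) / r +
        r * (if r ∣ Fintype.card ι then 1 else 0) := by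
  have hq := Fintype.one_lt_card (α := F)
  have h1 : ((Fintype.card F - 1 : ℕ) : F) ≠ 0 := by
    rw [Nat.cast_sub hq.le, FiniteField.cast_card_eq_zero]; simp
  obtain ⟨E, _, _, D, ξ, hτ, hξ⟩ := exists_fext F (M := r * (Fintype.card F - 1)) (by
    obtain ⟨k, hk⟩ := hrq
    rw [Nat.cast_mul]
    refine mul_ne_zero (fun h => h1 ?_) h1
    rw [hk, Nat.cast_mul, h, zero_mul])
  have hφ : (fun a : E => a * (a ^ (Fintype.card F - 1)) ^ (1 : ℤ)) = D.τ := funext fun a => by
    rw [zpow_one, hτ, mul_pow_sub_one (by omega)]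
  refine card_classes_proj hr hrq (by omega) D.ε hξ (Units.coeHom _) (.inl rfl) (fun g => ?_)
    (fun a ha => ?_) (fun g h hc => (isConj_units_iff g h).2 hc) (fun g s h => hφ ▸ h.map_τ)
    fun s h2 h3 h4 => ?_
  · rw [GeneralLinearGroup.mem_center_iff_val_mem_range_scalar]
    simp only [Set.mem_range, scalar_apply, Units.coeHom_apply, smul_one_eq_diagonal, eq_comm]
  · obtain ⟨c, rfl⟩ := (D.fix a).1 (by rw [← hφ]; simp [ha])
    have : c ≠ 0 := by rintro rfl; simp [show Fintype.card F - 1 ≠ 0 by omega] at ha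
    exact ⟨(isUnit_smul_one this).unit, c, rfl, rfl⟩
  · obtain ⟨A, hA⟩ := D.exists_isDg (hφ ▸ h4) h2
    exact ⟨(hA.isUnit h3).unit, hA⟩

theorem exists_frob_ext {K : Type*} [Field K] [Fintype K] {q : ℕ} (hK : Fintype.card K = q ^ 2)
    (ε : K →+* E) : ∃ φ : E →+* E, ∀ x, φ x = x ^ q := by
  obtain ⟨p, f, hp, -, hf, hc⟩ := exists_card_eq_pow K
  haveI := Fact.mk hp
  haveI : CharP E p := charP_of_injective_ringHom ε.injective p
  obtain ⟨e, -, rfl⟩ := (Nat.dvd_prime_pow hp).1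
    (show q ∣ p ^ f by rw [← hf, hK]; exact dvd_pow_self q two_ne_zero)
  exact ⟨iterateFrobenius E p e, fun x => rfl⟩

theorem mem_center_GU {K : Type*} [Field K] [Fintype K] {q n : ℕ} (hK : Fintype.card K = q ^ 2)
    (g : Cfsg.GU n K q) : g ∈ Subgroup.center (Cfsg.GU n K q) ↔ ∃ c : K, g.1.1 = c • 1 := by
  classical
  obtain ⟨σ, hσ, hσ2⟩ := exists_qfrob hK
  refine ⟨fun h => ?_, fun ⟨c, hc⟩ => Subgroup.mem_center_iff.2 fun x =>
    Subtype.ext (Units.ext (by simp [hc]))⟩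
  have key : ∀ M : Matrix (Fin n) (Fin n) K, ct σ M * M = 1 → M * g.1.1 = g.1.1 * M := fun M hM =>
    congrArg (fun x => x.1.1) (Subgroup.mem_center_iff.1 h
      ⟨(isUnit_of_mul_isUnit_right (hM ▸ isUnit_one)).unit, (mem_GU_iff hσ _).2 hM⟩)
  obtain ⟨θ, hθ⟩ := exists_ne_of_orderOf hσ2
  have h0 : θ ≠ 0 := by rintro rfl; simp at hθ
  have h0' : σ θ ≠ 0 := by simpa using h0
  have h1 : ∀ i j, i ≠ j → g.1.1 i j = 0 := fun i j hij => by
    have := congrFun (congrFun (key (diagonal (Function.update 1 i (θ / σ θ))) (by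
      rw [ct_apply, diagonal_map (map_zero σ), diagonal_transpose, diagonal_mul_diagonal,
        ← diagonal_one]
      congr 1; ext k
      by_cases hk : k = i
      · subst hk
        simp only [Function.update_self, map_div₀, invol_of_orderOf hσ2]; field_simp
      · simp [hk])) i) j
    simp only [diagonal_mul, mul_diagonal, Function.update_self, Function.update_of_ne hij.symm,
      Pi.one_apply, mul_one] at this
    by_contra h2
    rw [mul_eq_right₀ h2, div_eq_one_iff_eq h0'] at this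
    exact hθ (sub_eq_zero.2 this)
  have h2 : ∀ i j, g.1.1 i i = g.1.1 j j := fun i j => by
    have := congrFun (congrFun (key (Matrix.swap K i j) (by
      rw [ct_apply, show (Matrix.swap K i j).map σ = _ from Matrix.map_swap σ.toRingHom i j,
        Matrix.transpose_swap, Matrix.swap_mul_self])) i) j
    simpa using this.symm
  rcases isEmpty_or_nonempty (Fin n) with h3 | ⟨⟨i⟩⟩
  · exact ⟨0, Subsingleton.elim _ _⟩
  · refine ⟨g.1.1 i i, Matrix.ext fun a b => ?_⟩
    by_cases hab : a = b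
    · subst hab; simp [h2 a i]
    · simp [hab, h1 a b hab]

theorem card_classes_PGU {K : Type*} [Field K] [Fintype K] {q n r : ℕ}
    (hK : Fintype.card K = q ^ 2) (hn : 0 < n) (hr : r.Prime) (hrq : r ∣ q + 1) :
    Nat.card {C : ConjClasses (Cfsg.GU n K q ⧸ Subgroup.center (Cfsg.GU n K q)) //
      ∃ g, ConjClasses.mk g = C ∧ orderOf g = r} =
      ((n + r - 1).choose (r - 1) - r - (if r ∣ n then 1 else 0)) / r +
        r * (if r ∣ n then 1 else 0) := by
  classical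
  haveI : Nonempty (Fin n) := ⟨⟨0, hn⟩⟩
  obtain ⟨σ, hσ, hσ2⟩ := exists_qfrob hK
  have h1 : ((q + 1 : ℕ) : K) ≠ 0 := by
    have := FiniteField.cast_card_eq_zero K
    rw [hK, Nat.cast_pow, pow_eq_zero_iff two_ne_zero] at this
    simp [this]
  obtain ⟨E, _, _, D, ξ, hτ, hξ⟩ := exists_fext K (M := r * (q + 1)) (by
    obtain ⟨k, hk⟩ := hrq
    rw [Nat.cast_mul]
    refine mul_ne_zero (fun h => h1 ?_) h1
    rw [hk, Nat.cast_mul, h, zero_mul])
  obtain ⟨φ, hφ⟩ := exists_frob_ext hK D.ε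
  have hq := two_le_of_card_sq hK
  have hψ : (fun a : E => a * (a ^ (q + 1)) ^ (-1 : ℤ)) = (·⁻¹) ∘ φ := funext fun a => by
    by_cases ha : a = 0
    · simp [ha]
    · simp only [Function.comp_apply, hφ, _root_.zpow_neg_one]; field_simp; ring
  have hct : ∀ (A : Matrix (Fin n) (Fin n) K) (s : Multiset E), IsDg D.ε A s →
      IsDg D.ε (ct σ A) (s.map φ) := fun A s h =>
    (h.map_hom σ.toRingHom φ (ε' := D.ε) fun x => by simp [hσ, hφ]).transpose
  have := card_classes_proj hr hrq (by omega) D.ε hξ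
    ((Units.coeHom (Matrix (Fin n) (Fin n) K)).comp (Cfsg.GU n K q).subtype) (.inr rfl)
    (mem_center_GU hK) (fun a ha => ?_)
    (fun g h hc => (GU_isConj_iff hK g h).2 ((isConj_units_iff _ _).2 hc)) (fun g s h => ?_)
    fun s h2 h3 h4 => ?_
  · rwa [Fintype.card_fin] at this
  · obtain ⟨c, rfl⟩ := (D.fix a).1 (by
      rw [hτ, hK, show q ^ 2 = (q + 1) * (q - 1) + 1 by
        obtain ⟨k, rfl⟩ := Nat.exists_eq_add_of_le' hq
        simp only [show k + 2 - 1 = k + 1 from rfl]; ring, pow_succ, pow_mul, ha]; simp)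
    have hc : c ^ (q + 1) = 1 := D.ε.injective (by simpa using ha)
    have : c ≠ 0 := by rintro rfl; simp at hc
    refine ⟨⟨(isUnit_smul_one this).unit, (mem_GU_iff hσ _).2 ?_⟩, c, rfl, rfl⟩
    simp only [IsUnit.unit_spec]
    rw [ct_smul, ct_one, smul_mul_smul_comm, hσ, ← pow_succ, hc]; simp
  · have := (hct _ _ h).inv ((mem_GU_iff hσ _).1 g.2)
    rw [Multiset.map_map] at this
    rw [hψ]
    exact this.unique h
  · rw [hψ] at h4
    obtain ⟨A, hA⟩ := D.exists_isDg (by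
      conv_rhs => rw [← h4, ← h4, Multiset.map_map]
      refine Multiset.map_congr rfl fun a _ => ?_
      simp [hτ, hφ, hK, sq, pow_mul]) h2
    obtain ⟨A, rfl⟩ := hA.isUnit h3
    have e1 : (A.1.map fun x : K => x ^ q).transpose = ct σ A.1 := by
      ext i j; simp [ct_apply, hσ]
    obtain ⟨B, hB⟩ := (Cfsg.Agent.S2588.result hK A).2 (by
      have := (hct _ _ hA).inv (mul_nonsing_inv _
        ((isUnit_iff_isUnit_det _).1 (isUnit_ct σ A.isUnit)))
      rw [Multiset.map_map, h4] at this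
      rw [e1]
      exact hA.isConj this)
    exact ⟨B, hA.of_isConj ((isConj_units_iff _ _).1 hB)⟩

end CfsgH1
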