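import Cfsg.Agent.H1.Sp3
import Cfsg.Agent.H7.InvRing

set_option autoImplicit false
set_option maxHeartbeats 400000
set_option linter.unusedSectionVars false

namespace CfsgH1

open Matrix Module CfsgH7

theorem comm_exists_norm_mod {D : Type*} [CommRing D] [Finite D] (s : D →+* D)
    (hs : ∀ x, s (s x) = x) (e θ u h : D) (he : s e = e) (hθ : (θ - s θ) * u = 1 - e)
    (hu : IsUnit h) (hh : s h = h) : ∃ x c : D, x * s x = h + c * e := by
  let I : Ideal D := Ideal.span {e}
  let π := Ideal.Quotient.mk I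
  have hπe : π e = 0 := Ideal.Quotient.eq_zero_iff_mem.2 (Ideal.mem_span_singleton_self e)
  let s' : D ⧸ I →+* D ⧸ I := Ideal.Quotient.lift I (π.comp s) fun a ha => by
    obtain ⟨c, rfl⟩ := Ideal.mem_span_singleton'.1 ha
    simp [he, hπe]
  have e1 : ∀ x, s' (π x) = π (s x) := fun x => rfl
  haveI : Finite (D ⧸ I) := Finite.of_surjective π Ideal.Quotient.mk_surjective
  obtain ⟨x, hx⟩ := comm_exists_norm s' (fun x => by
      obtain ⟨x, rfl⟩ := Ideal.Quotient.mk_surjective x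
      rw [e1, e1, hs]) (π θ) (IsUnit.of_mul_eq_one (π u) (by
      rw [e1, ← map_sub, ← map_mul, hθ, map_sub, hπe]; simp)) (π h) (hu.map π) (by rw [e1, hh])
  obtain ⟨x, rfl⟩ := Ideal.Quotient.mk_surjective x
  rw [e1, ← map_mul, Ideal.Quotient.eq] at hx
  obtain ⟨c, hc⟩ := Ideal.mem_span_singleton'.1 hx
  exact ⟨x, c, by rw [hc]; ring⟩

theorem exists_norm_of_comm_mod {R : Type*} [Ring R] [Finite R] (s : R →+ R)
    (hmul : ∀ x y, s (x * y) = s y * s x) (hone : s 1 = 1)
    (S : Set R) (hcomm : ∀ a ∈ S, ∀ b ∈ S, a * b = b * a)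
    (hS : ∀ a ∈ S, s a ∈ Subring.closure S) (hss : ∀ a ∈ S, s (s a) = a)
    {e θ u h : R} (heS : e ∈ Subring.closure S) (hθS : θ ∈ Subring.closure S)
    (huS : u ∈ Subring.closure S) (hhS : h ∈ Subring.closure S) (he : s e = e) (hee : e * e = e)
    (hθ : (θ - s θ) * u = 1 - e) (hu : IsUnit h) (hh : s h = h) :
    ∃ x ∈ Subring.closure S, s x * x = h * (1 - e) ∧ e * x = 0 ∧ x * e = 0 := by
  have hcl := closure_star_mem s hmul hone S hS hss
  haveI := Subring.isMulCommutative_closure hcomm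
  letI : CommRing (Subring.closure S) := { (inferInstance : Ring (Subring.closure S)) with
    mul_comm := fun a b => mul_comm' a b }
  let s' : Subring.closure S →+* Subring.closure S :=
    { toFun := fun x => ⟨s x, (hcl x x.2).1⟩
      map_one' := Subtype.ext hone
      map_mul' := fun x y => by
        rw [mul_comm (⟨s x, _⟩ : Subring.closure S)]
        exact Subtype.ext (hmul x y)
      map_zero' := Subtype.ext (map_zero s)
      map_add' := fun x y => Subtype.ext (map_add s (x : R) (y : R)) }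
  have hs' : ∀ x, s' (s' x) = x := fun x => Subtype.ext (hcl x x.2).2
  set e' : Subring.closure S := ⟨e, heS⟩
  have he' : s' e' = e' := Subtype.ext he
  have hee' : e' * e' = e' := Subtype.ext hee
  obtain ⟨x, c, hx⟩ := comm_exists_norm_mod s' hs' e' ⟨θ, hθS⟩ ⟨u, huS⟩ ⟨h, hhS⟩ he'
    (Subtype.ext hθ) (isUnit_subring_of_finite _ _ hu) (Subtype.ext hh)
  have h1 : s' (x * (1 - e')) * (x * (1 - e')) = ⟨h, hhS⟩ * (1 - e') := by
    rw [map_mul, map_sub, map_one, he']
    linear_combination (1 - e') ^ 2 * hx + ((⟨h, hhS⟩ : Subring.closure S) - c + c * e') * hee'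
  have h2 : e' * (x * (1 - e')) = 0 := by linear_combination (-x) * hee'
  have h3 : (x * (1 - e')) * e' = 0 := by linear_combination (-x) * hee'
  exact ⟨(x * (1 - e') : Subring.closure S), (x * (1 - e')).2, congrArg Subtype.val h1,
    congrArg Subtype.val h2, congrArg Subtype.val h3⟩

section Avg
variable {F R : Type*} [Field F] [Ring R] [Algebra F R]

/-- averaging idempotent -/
def avgE (F : Type*) [Field F] [Algebra F R] (n : ℕ) (M : R) : R :=
  (n : F)⁻¹ • ∑ i ∈ Finset.range n, M ^ i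

theorem mul_avgE {n : ℕ} {M : R} (h : M ^ n = 1) : M * avgE F n M = avgE F n M := by
  have := mul_geom_sum M n
  rw [h, sub_self, sub_mul, one_mul, sub_eq_zero] at this
  rw [avgE, mul_smul_comm, this]

theorem avgE_mul {n : ℕ} {M : R} (h : M ^ n = 1) : avgE F n M * M = avgE F n M := by
  have := geom_sum_mul M n
  rw [h, sub_self, mul_sub, mul_one, sub_eq_zero] at this
  rw [avgE, smul_mul_assoc, this]

theorem pow_mul_of_fix {M x : R} (h : M * x = x) (i : ℕ) : M ^ i * x = x := by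
  induction i with
  | zero => simp
  | succ i ih => rw [pow_succ, mul_assoc, h, ih]

theorem mul_pow_of_fix {M x : R} (h : x * M = x) (i : ℕ) : x * M ^ i = x := by
  induction i with
  | zero => simp
  | succ i ih => rw [pow_succ', ← mul_assoc, h, ih]

theorem avgE_mul_of_fix {n : ℕ} (hn : (n : F) ≠ 0) {M x : R} (h : M * x = x) :
    avgE F n M * x = x := by
  rw [avgE, smul_mul_assoc, Finset.sum_mul]
  simp only [pow_mul_of_fix h, Finset.sum_const, Finset.card_range]
  rw [← Nat.cast_smul_eq_nsmul F, smul_smul, inv_mul_cancel₀ hn, one_smul]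

theorem mul_avgE_of_fix {n : ℕ} (hn : (n : F) ≠ 0) {M x : R} (h : x * M = x) :
    x * avgE F n M = x := by
  rw [avgE, mul_smul_comm, Finset.mul_sum]
  simp only [mul_pow_of_fix h, Finset.sum_const, Finset.card_range]
  rw [← Nat.cast_smul_eq_nsmul F, smul_smul, inv_mul_cancel₀ hn, one_smul]

theorem avgE_idem {n : ℕ} (hn : (n : F) ≠ 0) {M : R} (h : M ^ n = 1) :
    avgE F n M * avgE F n M = avgE F n M := avgE_mul_of_fix hn (mul_avgE h)

theorem one_sub_avgE {n : ℕ} (hn : (n : F) ≠ 0) (M : R) :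
    (1 - M) * ((n : F)⁻¹ • ∑ i ∈ Finset.range n, ∑ j ∈ Finset.range i, M ^ j) =
      1 - avgE F n M := by
  rw [mul_smul_comm, Finset.mul_sum]
  simp only [mul_neg_geom_sum, Finset.sum_sub_distrib, Finset.sum_const, Finset.card_range]
  rw [smul_sub, ← Nat.cast_smul_eq_nsmul F, smul_smul, inv_mul_cancel₀ hn, one_smul, avgE]

theorem avgE_eq_of_inv {n : ℕ} (hn : (n : F) ≠ 0) {M M' : R} (h : M ^ n = 1) (h' : M' ^ n = 1)
    (h1 : M' * M = 1) : avgE F n M' = avgE F n M := by
  rw [← mul_avgE_of_fix hn (x := avgE F n M') (M := M), avgE_mul_of_fix hn]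
  · conv_lhs => rw [← mul_avgE h, ← mul_assoc, h1, one_mul]
  · conv_lhs => rw [← avgE_mul h', mul_assoc, h1, mul_one]

end Avg

variable {F : Type*} [Field F] {ι κ : Type*} [Fintype ι] [DecidableEq ι] [Fintype κ] [DecidableEq κ]

/-- the adjoint with respect to a matrix form -/
noncomputable def adjM (J : Matrix ι ι F) : Matrix ι ι F →+ Matrix ι ι F where
  toFun a := J⁻¹ * aᵀ * J
  map_zero' := by simp
  map_add' a b := by simp [Matrix.mul_add, Matrix.add_mul]

theorem adjM_apply (J a : Matrix ι ι F) : adjM J a = J⁻¹ * aᵀ * J := rfl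

theorem mul_adjM {J : Matrix ι ι F} (hJ : IsUnit J) (a : Matrix ι ι F) : J * adjM J a = aᵀ * J := by
  rw [adjM_apply, ← Matrix.mul_assoc, ← Matrix.mul_assoc,
    mul_nonsing_inv _ ((isUnit_iff_isUnit_det _).1 hJ), Matrix.one_mul]

theorem adjM_eq_iff {J : Matrix ι ι F} (hJ : IsUnit J) {a b : Matrix ι ι F} :
    adjM J a = b ↔ aᵀ * J = J * b := by
  rw [← mul_adjM hJ, hJ.mul_right_inj]

theorem adjM_mul {J : Matrix ι ι F} (hJ : IsUnit J) (a b : Matrix ι ι F) :
    adjM J (a * b) = adjM J b * adjM J a := by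
  rw [adjM_eq_iff hJ, ← Matrix.mul_assoc, mul_adjM hJ, Matrix.mul_assoc, mul_adjM hJ,
    transpose_mul, Matrix.mul_assoc]

theorem adjM_smul (J : Matrix ι ι F) (c : F) (a : Matrix ι ι F) :
    adjM J (c • a) = c • adjM J a := by simp [adjM_apply]

theorem adjM_one {J : Matrix ι ι F} (hJ : IsUnit J) : adjM J 1 = 1 := by simp [adjM_eq_iff hJ]

theorem adjM_pow {J : Matrix ι ι F} (hJ : IsUnit J) (a : Matrix ι ι F) (n : ℕ) :
    adjM J (a ^ n) = adjM J a ^ n := by
  induction n with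
  | zero => simp [adjM_one hJ]
  | succ n ih => rw [pow_succ, adjM_mul hJ, ih, pow_succ']

theorem adjM_adjM {J : Matrix ι ι F} (hJ : IsUnit J) {ε : F} (hε : Jᵀ = ε • J)
    (a : Matrix ι ι F) : adjM J (adjM J a) = a := by
  have h := congrArg transpose (mul_adjM hJ a)
  rw [transpose_mul, transpose_mul, hε, transpose_transpose, Matrix.mul_smul, Matrix.smul_mul] at h
  rw [adjM_eq_iff hJ]
  by_cases h0 : ε = 0
  · have : J = 0 := by simpa [h0] using congrArg transpose hε
    simp [this]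
  · exact smul_right_injective _ h0 h

theorem adjM_mul_eq_iff {J : Matrix ι ι F} (hJ : IsUnit J) {x h : Matrix ι ι F} :
    adjM J x * x = h ↔ xᵀ * J * x = J * h := by
  rw [← mul_adjM hJ, Matrix.mul_assoc, hJ.mul_right_inj]

theorem exists_idem_factor {e : Matrix ι ι F} (he : e * e = e) :
    ∃ (W : Matrix ι (Fin e.rank) F) (C : Matrix (Fin e.rank) ι F), C * W = 1 ∧ W * C = e := by
  obtain ⟨W, L, h1, h2⟩ := exists_rank_factor e rfl
  refine ⟨W, L * e, ?_, by rw [← Matrix.mul_assoc, h2]⟩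
  have hu : IsUnit (L * e * W) := isUnit_of_rank (by
    rw [Fintype.card_fin]
    have : e = W * (L * e * W) * (L * e) := by
      simp only [← Matrix.mul_assoc]
      rw [h2, Matrix.mul_assoc e, Matrix.mul_assoc e, h2, he]
    conv_lhs => rw [this]
    exact (rank_mul_le_left _ _).trans (rank_mul_le_right _ _))
  apply hu.mul_left_cancel
  rw [Matrix.mul_one, Matrix.mul_assoc (L * e), ← Matrix.mul_assoc W, ← Matrix.mul_assoc W, h2,
    ← Matrix.mul_assoc, Matrix.mul_assoc L, he]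

theorem isUnit_restrict {J e : Matrix ι ι F} (hJ : IsUnit J) (he : eᵀ * J = J * e)
    {W : Matrix ι κ F} {C : Matrix κ ι F} (h1 : C * W = 1) (h2 : W * C = e) :
    IsUnit (Wᵀ * J * W) := by
  refine IsUnit.of_mul_eq_one (C * J⁻¹ * Cᵀ) ?_
  calc _ = Wᵀ * (J * (W * C)) * J⁻¹ * Cᵀ := by simp only [Matrix.mul_assoc]
    _ = Wᵀ * eᵀ * Cᵀ := by
      rw [h2, ← he, ← Matrix.mul_assoc, Matrix.mul_assoc _ J,
        mul_nonsing_inv _ ((isUnit_iff_isUnit_det _).1 hJ), Matrix.mul_one]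
    _ = 1 := by
      rw [← transpose_mul, ← transpose_mul, ← h2, Matrix.mul_assoc, h1, Matrix.mul_one, h1,
        transpose_one]

theorem exists_alt_piece {J H e : Matrix ι ι F} (hJ : IsUnit J) (aJ : AltM J) (hH : IsUnit H)
    (aH : AltM H) (hee : e * e = e) (heJ : eᵀ * J = J * e) (heH : eᵀ * H = H * e) :
    ∃ x, e * x = x ∧ x * e = x ∧ xᵀ * J * x = H * e := by
  obtain ⟨W, C, h1, h2⟩ := exists_idem_factor hee
  generalize e.rank = r at W C h1 h2
  obtain ⟨P, hP⟩ := alt_congr_GL (isUnit_restrict hJ heJ h1 h2) (aJ.congr W)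
    (isUnit_restrict hH heH h1 h2) (aH.congr W)
  refine ⟨W * P.1 * C, ?_, ?_, ?_⟩
  · conv_lhs => rw [← h2]
    simp only [Matrix.mul_assoc]
    rw [← Matrix.mul_assoc C, h1, Matrix.one_mul]
  · conv_lhs => rw [← h2]
    simp only [Matrix.mul_assoc]
    rw [← Matrix.mul_assoc C, h1, Matrix.one_mul]
  · calc _ = Cᵀ * (P.1ᵀ * (Wᵀ * J * W) * P.1) * C := by
          simp only [transpose_mul, Matrix.mul_assoc]
      _ = (W * C)ᵀ * H * (W * C) := by rw [hP]; simp only [transpose_mul, Matrix.mul_assoc]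
      _ = _ := by rw [h2, heH, Matrix.mul_assoc, hee]

theorem cross_zero {J e f x y : Matrix ι ι F} (he : eᵀ * J = J * e) (hef : e * f = 0)
    (hx : e * x = x) (hy : f * y = y) : xᵀ * J * y = 0 := by
  rw [← hx, ← hy, transpose_mul, Matrix.mul_assoc _ _ J, he]
  simp only [Matrix.mul_assoc]
  rw [← Matrix.mul_assoc e, hef]; simp

theorem exists_comm_congr [Finite F] {J H A : Matrix ι ι F} (hJ : IsUnit J) (aJ : AltM J)
    (hH : IsUnit H) (aH : AltM H) (hAJ : Aᵀ * J * A = J) (hAH : Aᵀ * H * A = H) {N : ℕ}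
    (hN : A ^ N = 1) (hNF : (N : F) ≠ 0) : ∃ x, Commute A x ∧ xᵀ * J * x = H := by
  have hN0 : N ≠ 0 := by rintro rfl; simp at hNF
  obtain ⟨h, rfl⟩ : ∃ h, H = J * h := ⟨J⁻¹ * H, by
    rw [← Matrix.mul_assoc, mul_nonsing_inv _ ((isUnit_iff_isUnit_det _).1 hJ), Matrix.one_mul]⟩
  have hε : Jᵀ = (-1 : F) • J := by rw [aJ.transpose_eq]; simp
  have hsA : adjM J A * A = 1 := by rw [adjM_mul_eq_iff hJ, hAJ, Matrix.mul_one]
  have hsA' : A * adjM J A = 1 := mul_eq_one_comm.1 hsA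
  have hsA2 : adjM J A = A ^ (N - 1) := by
    rw [← Matrix.mul_one (adjM J A), ← hN, ← mul_pow_sub_one hN0, ← Matrix.mul_assoc, hsA,
      Matrix.one_mul]
  have hAh : Commute A h := by
    rw [← Matrix.mul_assoc, ← mul_adjM hJ, Matrix.mul_assoc, Matrix.mul_assoc,
      hJ.mul_right_inj] at hAH
    change A * h = h * A
    conv_lhs => rw [← hAH, ← Matrix.mul_assoc, hsA', Matrix.one_mul]
  have hsh : adjM J h = h := by
    have := aH.transpose_eq
    rw [transpose_mul, aJ.transpose_eq, Matrix.mul_neg, neg_inj] at this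
    rwa [adjM_eq_iff hJ]
  let S : Set (Matrix ι ι F) := {a | a = A ∨ a = h ∨ ∃ c : F, a = c • 1}
  have mA : A ∈ Subring.closure S := Subring.subset_closure (.inl rfl)
  have mh : h ∈ Subring.closure S := Subring.subset_closure (.inr (.inl rfl))
  have msm : ∀ (c : F) a, a ∈ Subring.closure S → c • a ∈ Subring.closure S := fun c a ha => by
    have := mul_mem (Subring.subset_closure (s := S) (.inr (.inr ⟨c, rfl⟩))) ha
    simpa using this
  have cA : ∀ x ∈ Subring.closure S, Commute A x := fun x hx => commute_of_mem_closure (by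
    rintro b (rfl | rfl | ⟨c, rfl⟩)
    exacts [Commute.refl _, hAh, (Commute.one_right _).smul_right _]) hx
  have ch : ∀ x ∈ Subring.closure S, Commute h x := fun x hx => commute_of_mem_closure (by
    rintro b (rfl | rfl | ⟨c, rfl⟩)
    exacts [hAh.symm, Commute.refl _, (Commute.one_right _).smul_right _]) hx
  have hN2 : (A ^ 2) ^ N = 1 := by rw [← pow_mul, mul_comm, pow_mul, hN, one_pow]
  set e := avgE F N (A ^ 2) with he
  have me : e ∈ Subring.closure S := msm _ _ (sum_mem fun i _ => pow_mem (pow_mem mA _) _)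
  have hee : e * e = e := avgE_idem hNF hN2
  have hse : adjM J e = e := by
    rw [he, avgE, adjM_smul, map_sum]
    simp only [adjM_pow hJ]
    refine avgE_eq_of_inv hNF hN2 (M' := adjM J A ^ 2) ?_ ?_
    · rw [← adjM_pow hJ, ← adjM_pow hJ, hN2, adjM_one hJ]
    · rw [← (Commute.mul_pow (hsA.trans hsA'.symm) 2), hsA, one_pow]
  obtain ⟨y, my, hy1, hy2, hy3⟩ := exists_norm_of_comm_mod (adjM J) (adjM_mul hJ) (adjM_one hJ) S
    (fun a ha b hb => by
      rcases ha with rfl | rfl | ⟨c, rfl⟩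
      · exact cA b (Subring.subset_closure hb)
      · exact ch b (Subring.subset_closure hb)
      · simp)
    (by
      rintro a (rfl | rfl | ⟨c, rfl⟩)
      · rw [hsA2]; exact pow_mem mA _
      · rwa [hsh]
      · rw [adjM_smul, adjM_one hJ]; exact msm _ _ (one_mem _))
    (fun a _ => adjM_adjM hJ hε a) me mA
    (u := -A * ((N : F)⁻¹ • ∑ i ∈ Finset.range N, ∑ j ∈ Finset.range i, (A ^ 2) ^ j))
    (mul_mem (neg_mem mA) (msm _ _ (sum_mem fun i _ => sum_mem fun j _ => pow_mem (pow_mem mA _) _)))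
    mh hse hee (by
      rw [← one_sub_avgE hNF, ← Matrix.mul_assoc, Matrix.mul_neg, Matrix.sub_mul, hsA, neg_sub, sq])
    (isUnit_of_mul_isUnit_right hH) hsh
  have hA2e : A * (A * e) = e := by rw [← Matrix.mul_assoc, ← sq, he, mul_avgE hN2]
  obtain ⟨a, b, ma, mb, sa, sb, hab, haa, hbb, hab0, hAa, hAb⟩ : ∃ a b, a ∈ Subring.closure S ∧
      b ∈ Subring.closure S ∧ adjM J a = a ∧ adjM J b = b ∧ a + b = e ∧ a * a = a ∧ b * b = b ∧
      a * b = 0 ∧ A * a = a ∧ A * b = -b := by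
    by_cases h2 : (2 : F) = 0
    · refine ⟨e, 0, me, zero_mem _, hse, map_zero _, add_zero _, hee, by simp, by simp, ?_, by simp⟩
      obtain ⟨k, rfl⟩ : Odd N := Nat.not_even_iff_odd.1 fun ⟨k, hk⟩ => hNF (by
        rw [hk, Nat.cast_add, ← two_mul, h2, zero_mul])
      have := pow_mul_of_fix (mul_avgE (F := F) hN2) k
      rw [← he] at this
      conv_lhs => rw [← this, ← Matrix.mul_assoc, ← pow_mul, ← pow_succ', hN, Matrix.one_mul]
    · have hsAe : adjM J (A * e) = A * e := by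
        rw [adjM_mul hJ, hse]
        conv_lhs => rw [← hA2e, (cA e me).eq, ← Matrix.mul_assoc, Matrix.mul_assoc, hsA',
          Matrix.mul_one]
      have e1 : e * (A * e) = A * e := by
        rw [← Matrix.mul_assoc, ← (cA e me).eq, Matrix.mul_assoc, hee]
      have e2 : (A * e) * e = A * e := by rw [Matrix.mul_assoc, hee]
      have e3 : (A * e) * (A * e) = e := by rw [Matrix.mul_assoc, e1, hA2e]
      have h22 : (2⁻¹ : F) * 2⁻¹ * 2 = 2⁻¹ := by field_simp
      refine ⟨(2⁻¹ : F) • (e + A * e), (2⁻¹ : F) • (e - A * e),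
        msm _ _ (add_mem me (mul_mem mA me)), msm _ _ (sub_mem me (mul_mem mA me)),
        by rw [adjM_smul, map_add, hse, hsAe], by rw [adjM_smul, map_sub, hse, hsAe],
        ?_, ?_, ?_, ?_, ?_, ?_⟩
      · rw [← smul_add, add_add_sub_cancel, ← two_smul F, smul_smul, inv_mul_cancel₀ h2, one_smul]
      · rw [smul_mul_smul_comm, Matrix.add_mul, Matrix.mul_add, Matrix.mul_add, hee, e1, e2, e3,
          add_comm (A * e), ← two_smul F, smul_smul, h22]
      · rw [smul_mul_smul_comm, Matrix.sub_mul, Matrix.mul_sub, Matrix.mul_sub, hee, e1, e2, e3,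
          sub_eq_add_neg (e - A * e), neg_sub, ← two_smul F, smul_smul, h22]
      · rw [smul_mul_smul_comm, Matrix.add_mul, Matrix.mul_sub, Matrix.mul_sub, hee, e1, e2, e3]
        simp
      · rw [Matrix.mul_smul, Matrix.mul_add, hA2e, add_comm]
      · rw [Matrix.mul_smul, Matrix.mul_sub, hA2e, ← smul_neg, neg_sub]
  have hba0 : b * a = 0 := by
    have := congrArg (adjM J) hab0
    rwa [adjM_mul hJ, sa, sb, map_zero] at this
  have sH : ∀ a ∈ Subring.closure S, adjM J a = a → aᵀ * (J * h) = J * h * a := fun a ma sa => by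
    rw [← Matrix.mul_assoc, (adjM_eq_iff hJ).1 sa, Matrix.mul_assoc, ← (ch a ma).eq,
      Matrix.mul_assoc]
  have ta := (adjM_eq_iff hJ).1 sa
  have tb := (adjM_eq_iff hJ).1 sb
  have tc : (1 - e)ᵀ * J = J * (1 - e) := (adjM_eq_iff hJ).1 (by rw [map_sub, adjM_one hJ, hse])
  obtain ⟨x₁, p1, p2, p3⟩ := exists_alt_piece hJ aJ hH aH haa ta (sH a ma sa)
  obtain ⟨x₂, q1, q2, q3⟩ := exists_alt_piece hJ aJ hH aH hbb tb (sH b mb sb)
  have r1 : (1 - e) * y = y := by rw [Matrix.sub_mul, hy2]; simp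
  have ea : e * a = a := by rw [← hab, Matrix.add_mul, haa, hba0, add_zero]
  have eb : e * b = b := by rw [← hab, Matrix.add_mul, hbb, hab0, zero_add]
  have ae : a * e = a := by rw [← hab, Matrix.mul_add, haa, hab0, add_zero]
  have be : b * e = b := by rw [← hab, Matrix.mul_add, hbb, hba0, zero_add]
  refine ⟨x₁ + x₂ + y, ((?_ : Commute A x₁).add_right ?_).add_right (cA y my), ?_⟩
  · change A * x₁ = x₁ * A
    rw [← p1, ← Matrix.mul_assoc, hAa, p1, ← p2, Matrix.mul_assoc, ← (cA a ma).eq, hAa]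
  · change A * x₂ = x₂ * A
    rw [← q1, ← Matrix.mul_assoc, hAb, q1, ← q2, Matrix.mul_assoc, ← (cA b mb).eq, hAb,
      Matrix.neg_mul, Matrix.mul_neg, q2, q1]
  · rw [adjM_mul_eq_iff hJ] at hy1
    simp only [transpose_add, Matrix.add_mul, Matrix.mul_add]
    rw [p3, q3, hy1, cross_zero ta hab0 p1 q1, cross_zero tb hba0 q1 p1,
      cross_zero ta (by rw [Matrix.mul_sub, ae]; simp) p1 r1,
      cross_zero tb (by rw [Matrix.mul_sub, be]; simp) q1 r1,
      cross_zero tc (by rw [Matrix.sub_mul, ea]; simp) r1 p1,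
      cross_zero tc (by rw [Matrix.sub_mul, eb]; simp) r1 q1, ← hab]
    simp only [Matrix.mul_sub, Matrix.mul_add, Matrix.mul_assoc, Matrix.mul_one]
    abel

/-- semisimple elements of the isometry group of an alternating form -/
theorem isConj_isomG_of_semisimple [Finite F] {J : Matrix ι ι F} (hJ : IsUnit J) (aJ : AltM J)
    {A B : Matrix ι ι F} (hA : Aᵀ * J * A = J) (hB : Bᵀ * J * B = J) {N : ℕ}
    (hN : A ^ N = 1) (hNF : (N : F) ≠ 0) (h : IsConj A B) :
    ∃ g : Matrix ι ι F, gᵀ * J * g = J ∧ g * A = B * g := by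
  obtain ⟨g, hg⟩ := h
  have hg' : g.1 * A = B * g.1 := hg
  have hu : IsUnit (g.1ᵀ * J * g.1) :=
    (((isUnit_transpose _).2 g.isUnit).mul hJ).mul g.isUnit
  obtain ⟨x, hx1, hx2⟩ := exists_comm_congr hJ aJ hu (aJ.congr g.1) hA (by
    calc _ = (g.1 * A)ᵀ * J * (g.1 * A) := by simp only [transpose_mul, Matrix.mul_assoc]
      _ = g.1ᵀ * (Bᵀ * J * B) * g.1 := by simp only [hg', transpose_mul, Matrix.mul_assoc]
      _ = _ := by rw [hB]) hN hNF
  obtain ⟨x, rfl⟩ : IsUnit x := isUnit_of_mul_isUnit_right (hx2.symm ▸ hu)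
  refine ⟨g.1 * x⁻¹.1, ?_, ?_⟩
  · calc _ = x⁻¹.1ᵀ * (g.1ᵀ * J * g.1) * x⁻¹.1 := by simp only [transpose_mul, Matrix.mul_assoc]
      _ = (x.1 * x⁻¹.1)ᵀ * J * (x.1 * x⁻¹.1) := by
        simp only [← hx2, transpose_mul, Matrix.mul_assoc]
      _ = J := by simp
  · rw [Matrix.mul_assoc, ← hx1.units_inv_right.eq, ← Matrix.mul_assoc, hg', Matrix.mul_assoc]

theorem sp_isConj_iff [Finite F] {m : ℕ} {A B : symplecticGroup (Fin m) F} {N : ℕ}
    (hN : A ^ N = 1) (hNF : (N : F) ≠ 0) : IsConj A B ↔ IsConj A.1 B.1 := by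
  refine ⟨fun h => (symplecticGroup (Fin m) F).subtype.map_isConj h, fun h => ?_⟩
  obtain ⟨g, h1, h2⟩ := isConj_isomG_of_semisimple isUnit_J (altM_J _)
    (SymplecticGroup.mem_iff'.1 A.2) (SymplecticGroup.mem_iff'.1 B.2)
    (congrArg Subtype.val hN) hNF h
  exact isConj_iff.2 ⟨⟨g, SymplecticGroup.mem_iff'.2 h1⟩,
    mul_inv_eq_iff_eq_mul.2 (Subtype.ext h2)⟩

end CfsgH1
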