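import Cfsg.Agent.H1.JType

set_option autoImplicit false
set_option maxHeartbeats 400000

namespace CfsgH1

open Matrix Module

theorem card_centralizer_transvection {F : Type*} [Field F] [Fintype F] {n : ℕ} (hn : 2 ≤ n)
    (t : GL (Fin n) F) (h1 : ((t : Matrix (Fin n) (Fin n) F) - 1).rank = 1)
    (h2 : ((t : Matrix (Fin n) (Fin n) F) - 1) * ((t : Matrix (Fin n) (Fin n) F) - 1) = 0) :
    Nat.card (Subgroup.centralizer ({t} : Set (GL (Fin n) F))) =
      Fintype.card F ^ (2 * n - 3) * (Fintype.card F - 1) *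
        ∏ i : Fin (n - 2), (Fintype.card F ^ (n - 2) - Fintype.card F ^ (i : ℕ)) := by
  classical
  obtain ⟨m, rfl⟩ : ∃ m, n = m + 2 := ⟨n - 2, by omega⟩
  let d : Option (Fin m) → ℕ := fun k => k.elim 2 (fun _ => 1)
  have hd : ∀ k, 1 ≤ d k := fun k => by cases k <;> simp [d]
  have hJ : IsJType (t : Matrix (Fin (m + 2)) (Fin (m + 2)) F) (Finset.univ.val.map d) := by
    refine ⟨(isJType_nilJ (F := F) hd).1, fun e => ?_⟩
    rw [Multiset.map_map]
    change _ = ∑ k, (d k - e)
    rw [Fintype.sum_option]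
    rcases e with _ | _ | e
    · simp [d, add_comm]
    · simp [d, h1]
    · rw [add_assoc, pow_add, show 1 + 1 = 2 from rfl, sq, h2]; simp [d]
  have m1 : mulJ d 1 = m := by
    rw [mulJ, Finset.card_filter, Fintype.sum_option]; simp [d]
  have m2 : mulJ d 2 = 1 := by
    rw [mulJ, Finset.card_filter, Fintype.sum_option]; simp [d]
  rw [card_centralizer_of_jtype hd (I := {1, 2}) (fun k => by cases k <;> simp [d]) t hJ,
    Finset.prod_pair (by norm_num), card_GL_eq, card_GL_eq, card_Fb, card_Fb, m1, m2]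
  have : gamJ d {1, 2} = 2 * (m + 2) - 3 := by
    simp only [gamJ]
    rw [Finset.sum_pair (by norm_num), Finset.sum_pair (by norm_num),
      Finset.sum_pair (by norm_num), Finset.sum_pair (by norm_num), m1, m2]
    simp; omega
  rw [this]
  simp [mul_comm, mul_assoc, mul_left_comm]
  exact Or.inl rfl

end CfsgH1
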